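import Mathlib
import Cfsg.Agent.Lib.ElusQ.Oz

/-!
# Arithmetic of the index of the orthogonal group over the quadratic extension
-/

set_option autoImplicit false

namespace Cfsg.Agent.Lib.ElusK2.ArithO

open Cfsg.Agent.Lib.ElusQ.Oz

/-- The prime `r` does not divide `q^(2j) - 1` for `j` odd when the order of `q²` is even. -/
theorem not_dvd_odd {q r j : ℕ} [hr : Fact r.Prime] (hrq : ¬ r ∣ q) (he : Even (orderOf (((q ^ 2 : ℕ)) : ZMod r)))
    (hj : Odd j) : ¬ r ∣ q ^ (2 * j) - 1 := by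
  intro h
  have hq0 : 0 < q := by
    rcases Nat.eq_zero_or_pos q with h0 | h0
    · rw [h0] at hrq
      exact absurd (dvd_zero r) hrq
    · exact h0
  have h1 : 1 ≤ q ^ (2 * j) := Nat.one_le_pow _ _ hq0
  have h2 : ((q ^ (2 * j) - 1 : ℕ) : ZMod r) = 0 := (ZMod.natCast_eq_zero_iff _ r).2 h
  rw [Nat.cast_sub h1, sub_eq_zero, Nat.cast_one] at h2
  have h3 : (((q ^ 2 : ℕ)) : ZMod r) ^ j = 1 := by
    rw [← Nat.cast_pow, ← pow_mul]
    exact h2
  have h4 := orderOf_dvd_of_pow_eq_one h3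
  exact (Nat.not_even_iff_odd.2 hj) (he.two_dvd.trans h4 |> even_iff_two_dvd.2)

/-- Splitting a product according to parity. -/
theorem prod_two (f : ℕ → ℕ) (n : ℕ) :
    ∏ i ∈ Finset.range (2 * n), f (i + 1) =
      (∏ i ∈ Finset.range n, f (2 * (i + 1))) * ∏ i ∈ Finset.range n, f (2 * i + 1) := by
  induction n with
  | zero => simp
  | succ n ih =>
    rw [show 2 * (n + 1) = 2 * n + 1 + 1 by ring, Finset.prod_range_succ, Finset.prod_range_succ, ih,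
      Finset.prod_range_succ, Finset.prod_range_succ]
    rw [show 2 * n + 1 + 1 = 2 * (n + 1) by ring]
    ring

theorem prod_two' (f : ℕ → ℕ) (k : ℕ) :
    ∏ i ∈ Finset.range (2 * k + 1), f (i + 1) =
      (∏ i ∈ Finset.range k, f (2 * (i + 1))) * ∏ i ∈ Finset.range (k + 1), f (2 * i + 1) := by
  rw [Finset.prod_range_succ, prod_two, Finset.prod_range_succ (fun i => f (2 * i + 1))]
  ring

theorem pow_factor_pos {q : ℕ} (hq : 1 < q) (m : ℕ) :
    0 < ∏ i ∈ Finset.range m, ((q ^ 2) ^ (2 * (i + 1)) - 1) := by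
  apply Finset.prod_pos
  intro i _
  have : 1 < (q ^ 2) ^ (2 * (i + 1)) := Nat.one_lt_pow (by omega) (Nat.one_lt_pow (by norm_num) hq)
  omega

/-- The odd case. -/
theorem arith_odd {q r idx m s A : ℕ} [hr : Fact r.Prime] (hrq : ¬ r ∣ q)
    (he : Even (orderOf (((q ^ 2 : ℕ)) : ZMod r))) (hq : 1 < q)
    (hs : r ∣ s → r ∣ q ^ (2 * (2 * m + 1)) - 1)
    (h : idx * (2 * (q ^ 2) ^ (m ^ 2) * ∏ i ∈ Finset.range m, ((q ^ 2) ^ (2 * (i + 1)) - 1)) ∣
      2 * q ^ A * s * ∏ i ∈ Finset.range (2 * m), (q ^ (2 * (i + 1)) - 1))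
    (hdvd : r ∣ idx) : False := by
  have hf : ∏ i ∈ Finset.range (2 * m), (q ^ (2 * (i + 1)) - 1) =
      (∏ i ∈ Finset.range m, (q ^ (2 * (2 * (i + 1))) - 1)) * ∏ i ∈ Finset.range m, (q ^ (2 * (2 * i + 1)) - 1) :=
    prod_two (fun j => q ^ (2 * j) - 1) m
  rw [hf] at h
  have hX : ∏ i ∈ Finset.range m, (q ^ (2 * (2 * (i + 1))) - 1) =
      ∏ i ∈ Finset.range m, ((q ^ 2) ^ (2 * (i + 1)) - 1) := by
    refine Finset.prod_congr rfl fun i _ => ?_
    rw [pow_mul]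
  rw [hX] at h
  set X := ∏ i ∈ Finset.range m, ((q ^ 2) ^ (2 * (i + 1)) - 1) with hXdef
  set Y := ∏ i ∈ Finset.range m, (q ^ (2 * (2 * i + 1)) - 1) with hYdef
  have hXpos : 0 < X := pow_factor_pos hq m
  have h1 : (2 * X) * (idx * (q ^ 2) ^ (m ^ 2)) ∣ (2 * X) * (q ^ A * s * Y) := by
    convert h using 1 <;> ring
  have h2 := Nat.dvd_of_mul_dvd_mul_left (by positivity) h1
  have h3 : r ∣ q ^ A * s * Y := (hdvd.trans (Dvd.intro _ rfl)).trans h2
  rcases (Nat.Prime.dvd_mul hr.out).1 h3 with h4 | h4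
  · rcases (Nat.Prime.dvd_mul hr.out).1 h4 with h5 | h5
    · exact hrq (hr.out.dvd_of_dvd_pow h5)
    · exact not_dvd_odd hrq he (odd_two_mul_add_one m) (hs h5)
  · obtain ⟨i, -, hi⟩ := (Prime.exists_mem_finset_dvd hr.out.prime h4)
    exact not_dvd_odd hrq he (odd_two_mul_add_one i) hi

/-- The even case. -/
theorem arith_even {q r idx k s A : ℕ} [hr : Fact r.Prime] (hrq : ¬ r ∣ q)
    (he : Even (orderOf (((q ^ 2 : ℕ)) : ZMod r))) (hq : 1 < q) (hs0 : 0 < s)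
    (h : idx * (2 * (q ^ 2) ^ ((k + 1) * k) * s * ∏ i ∈ Finset.range k, ((q ^ 2) ^ (2 * (i + 1)) - 1)) ∣
      2 * q ^ A * s * ∏ i ∈ Finset.range (2 * k + 1), (q ^ (2 * (i + 1)) - 1))
    (hdvd : r ∣ idx) : False := by
  have hf : ∏ i ∈ Finset.range (2 * k + 1), (q ^ (2 * (i + 1)) - 1) =
      (∏ i ∈ Finset.range k, (q ^ (2 * (2 * (i + 1))) - 1)) * ∏ i ∈ Finset.range (k + 1), (q ^ (2 * (2 * i + 1)) - 1) :=
    prod_two' (fun j => q ^ (2 * j) - 1) k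
  rw [hf] at h
  have hX : ∏ i ∈ Finset.range k, (q ^ (2 * (2 * (i + 1))) - 1) =
      ∏ i ∈ Finset.range k, ((q ^ 2) ^ (2 * (i + 1)) - 1) := by
    refine Finset.prod_congr rfl fun i _ => ?_
    rw [pow_mul]
  rw [hX] at h
  set X := ∏ i ∈ Finset.range k, ((q ^ 2) ^ (2 * (i + 1)) - 1) with hXdef
  set Y := ∏ i ∈ Finset.range (k + 1), (q ^ (2 * (2 * i + 1)) - 1) with hYdef
  have hXpos : 0 < X := pow_factor_pos hq k
  have h1 : (2 * s * X) * (idx * (q ^ 2) ^ ((k + 1) * k)) ∣ (2 * s * X) * (q ^ A * Y) := by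
    convert h using 1 <;> ring
  have h2 := Nat.dvd_of_mul_dvd_mul_left (by positivity) h1
  have h3 : r ∣ q ^ A * Y := (hdvd.trans (Dvd.intro _ rfl)).trans h2
  rcases (Nat.Prime.dvd_mul hr.out).1 h3 with h4 | h4
  · exact hrq (hr.out.dvd_of_dvd_pow h4)
  · obtain ⟨i, -, hi⟩ := (Prime.exists_mem_finset_dvd hr.out.prime h4)
    exact not_dvd_odd hrq he (odd_two_mul_add_one i) hi

/-- The minimal dimension in terms of the order of `q²`. -/
theorem cOf_eq {q r : ℕ} [hr : Fact r.Prime] (hrq : ¬ r ∣ q) :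
    cOf (orderOf ((q : ℕ) : ZMod r)) = 2 * orderOf (((q ^ 2 : ℕ)) : ZMod r) := by
  have hq0 : ((q : ℕ) : ZMod r) ≠ 0 := by
    intro h
    exact hrq ((ZMod.natCast_eq_zero_iff _ _).1 h)
  haveI : NeZero r := ⟨hr.out.ne_zero⟩
  have hipos : 0 < orderOf ((q : ℕ) : ZMod r) := by
    have h1 : ((q : ℕ) : ZMod r) ^ (r - 1) = 1 := ZMod.pow_card_sub_one_eq_one hq0
    exact orderOf_pos_iff.2 (isOfFinOrder_iff_pow_eq_one.2 ⟨r - 1, Nat.sub_pos_of_lt hr.out.one_lt, h1⟩)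
  rw [Nat.cast_pow, orderOf_pow' _ (by norm_num : (2 : ℕ) ≠ 0)]
  set i := orderOf ((q : ℕ) : ZMod r) with hi
  unfold cOf
  by_cases he : Even i
  · rw [if_pos he, Nat.gcd_eq_right he.two_dvd, Nat.mul_div_cancel' he.two_dvd]
  · rw [if_neg he]
    have h1 : Nat.gcd i 2 = 1 := by
      have : Nat.Coprime i 2 := (Nat.coprime_two_right).2 (Nat.not_even_iff_odd.1 he)
      exact this
    rw [h1, Nat.div_one]

end Cfsg.Agent.Lib.ElusK2.ArithO
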