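import Mathlib
import Cfsg.Agent.Lib.ElusK.Beta
import Cfsg.Agent.Lib.ElusQ.Disc

/-!
# The symmetric `L`-form attached to a self-adjoint field action, and the transfer of discriminants

`L/F` a quadratic extension of finite fields of odd characteristic acting on `V`, `B` a symmetric
non-degenerate `F`-form for which `L` acts by self-adjoint maps. Then `B = τ ∘ β` with `β` a symmetric
non-degenerate `L`-form; two such pairs whose `F`-forms are isometric have `L`-isometric `L`-forms.
-/

set_option autoImplicit false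

namespace Cfsg.Agent.Lib.ElusK2.SymBeta

open Module Cfsg.Agent.Lib.ElusK.Beta Cfsg.Agent.Lib.QuadDisc.Basic Cfsg.Agent.Lib.QuadDisc.Classify

section beta

variable {F L V : Type*} [Field F] [Field L] [Algebra F L] [AddCommGroup V] [Module F V] [Module L V]
  [IsScalarTower F L V] [FiniteDimensional F L]

/-- The symmetric `L`-valued form. -/
noncomputable def betaS (B : LinearMap.BilinForm F V) (hsa : ∀ (a : L) (u v : V), B (a • u) v = B u (a • v))
    (τ : L →ₗ[F] F) (hτ : τ 1 ≠ 0) : LinearMap.BilinForm L V :=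
  LinearMap.mk₂ L (betaFun B τ hτ)
    (fun u u' v => by
      refine tau_unique τ hτ fun a => ?_
      rw [mul_add, map_add, ← betaFun_spec, ← betaFun_spec, ← betaFun_spec, smul_add, map_add, LinearMap.add_apply])
    (fun c u v => by
      refine tau_unique τ hτ fun a => ?_
      rw [smul_eq_mul, ← mul_assoc, ← betaFun_spec, ← betaFun_spec, mul_smul])
    (fun u v v' => by
      refine tau_unique τ hτ fun a => ?_
      rw [mul_add, map_add, ← betaFun_spec, ← betaFun_spec, ← betaFun_spec, map_add])
    (fun c u v => by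
      refine tau_unique τ hτ fun a => ?_
      rw [smul_eq_mul, ← mul_assoc, ← betaFun_spec, ← hsa, smul_smul, mul_comm c a, ← betaFun_spec])

variable {B : LinearMap.BilinForm F V} (hsa : ∀ (a : L) (u v : V), B (a • u) v = B u (a • v))
  (τ : L →ₗ[F] F) (hτ : τ 1 ≠ 0)

theorem form_eqS (a : L) (u v : V) : B (a • u) v = τ (a * betaS B hsa τ hτ u v) := betaFun_spec B τ hτ u v a

theorem form_eq_oneS (u v : V) : B u v = τ (betaS B hsa τ hτ u v) := by
  have h := form_eqS hsa τ hτ 1 u v
  rwa [one_smul, one_mul] at h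

theorem betaS_symm (hS : B.IsSymm) : (betaS B hsa τ hτ).IsSymm := by
  refine ⟨fun u v => ?_⟩
  change betaS B hsa τ hτ u v = betaS B hsa τ hτ v u
  refine tau_unique τ hτ fun a => ?_
  rw [← form_eqS, ← form_eqS, hsa, hS.eq]

theorem betaS_nd (hN : B.Nondegenerate) {u : V} (h : ∀ v, betaS B hsa τ hτ u v = 0) : u = 0 :=
  hN.1 u fun v => by
    rw [form_eq_oneS hsa τ hτ, h, map_zero]

theorem betaS_nondeg (hS : B.IsSymm) (hN : B.Nondegenerate) : (betaS B hsa τ hτ).Nondegenerate := by
  have hrefl : (betaS B hsa τ hτ).IsRefl := (betaS_symm hsa τ hτ hS).isRefl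
  refine (LinearMap.IsRefl.nondegenerate_iff_separatingLeft hrefl).2 ?_
  intro x hx
  exact betaS_nd hsa τ hτ hN hx

/-- Isometries of `β` are isometries of `B`. -/
theorem iso_of_betaS {g : V → V} (hg : ∀ u v, betaS B hsa τ hτ (g u) (g v) = betaS B hsa τ hτ u v) (u v : V) :
    B (g u) (g v) = B u v := by
  rw [form_eq_oneS hsa τ hτ, hg, ← form_eq_oneS hsa τ hτ]

/-- `L`-linear isometries of `B` are isometries of `β`. -/
theorem betaS_of_iso {g : V → V} (hgL : ∀ (a : L) v, g (a • v) = a • g v) (hg : ∀ u v, B (g u) (g v) = B u v)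
    (u v : V) : betaS B hsa τ hτ (g u) (g v) = betaS B hsa τ hτ u v := by
  refine tau_unique τ hτ fun a => ?_
  rw [← form_eqS hsa τ hτ, ← form_eqS hsa τ hτ, ← hgL, hg]

end beta

section gram

variable {F E V : Type*} [Field F] [Field E] [Algebra F E] [AddCommGroup V] [Module F V] [Module E V]
  [IsScalarTower F E V]

/-- The determinant of the Gram matrix of `τ ∘ β` in a tower basis. -/
theorem det_gram_tower {κ n : Type*} [Fintype κ] [DecidableEq κ] [Fintype n] [DecidableEq n]
    (c : Basis κ F E) (b : Basis n E V) (τ : E →ₗ[F] F) (β : LinearMap.BilinForm E V)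
    (B : LinearMap.BilinForm F V) (hB : ∀ u v, B u v = τ (β u v)) :
    (LinearMap.BilinForm.toMatrix (c.smulTower b) B).det =
      (Matrix.of fun i j => τ (c i * c j)).det ^ Fintype.card n *
        Algebra.norm F (LinearMap.BilinForm.toMatrix b β).det := by
  classical
  haveI : Module.Finite F E := Module.Finite.of_basis c
  haveI : Module.Free F E := Module.Free.of_basis c
  haveI : Module.Free E V := Module.Free.of_basis b
  set G := LinearMap.BilinForm.toMatrix b β with hG
  let T : V →ₗ[E] V := Matrix.toLin b b G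
  let D : LinearMap.BilinForm E V := (LinearMap.BilinForm.toMatrix b).symm 1
  have hD : ∀ i j, D (b i) (b j) = (1 : Matrix n n E) i j := by
    intro i j
    have h : LinearMap.BilinForm.toMatrix b D = 1 := LinearEquiv.apply_symm_apply _ _
    rw [← h, LinearMap.BilinForm.toMatrix_apply]
  have hβ : ∀ u v, β u v = D u (T v) := by
    have h1 : β = D.compRight T := by
      apply LinearMap.BilinForm.ext_basis b
      intro i j
      rw [LinearMap.BilinForm.compRight_apply]
      have h2 : T (b j) = ∑ k, G k j • b k := by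
        simp only [T]
        rw [Matrix.toLin_self]
      rw [h2, map_sum]
      simp only [map_smul, hD, smul_eq_mul, Matrix.one_apply, mul_ite, mul_one, mul_zero]
      rw [Finset.sum_ite_eq]
      simp [hG, LinearMap.BilinForm.toMatrix_apply]
    intro u v
    rw [h1]
    rfl
  let B₀ : LinearMap.BilinForm F V := LinearMap.mk₂ F (fun u v => τ (D u v))
    (fun u u' v => by simp) (fun c u v => by
      rw [← smul_one_smul E c u, map_smul, LinearMap.smul_apply, smul_eq_mul, Algebra.smul_def, mul_one,
        ← Algebra.smul_def, map_smul, smul_eq_mul])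
    (fun u v v' => by simp) (fun c u v => by
      rw [← smul_one_smul E c v, map_smul, smul_eq_mul, Algebra.smul_def, mul_one,
        ← Algebra.smul_def, map_smul, smul_eq_mul])
  have hB₀ : ∀ u v, B₀ u v = τ (D u v) := fun _ _ => rfl
  let TF : V →ₗ[F] V := T.restrictScalars F
  have hcomp : B = B₀.comp LinearMap.id TF := by
    ext u v
    rw [hB, hβ]
    rfl
  set e := c.smulTower b with he
  have h1 : LinearMap.BilinForm.toMatrix e B =
      LinearMap.BilinForm.toMatrix e B₀ * LinearMap.toMatrix e e TF := by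
    rw [hcomp, LinearMap.BilinForm.toMatrix_comp e e]
    simp
  have h2 : LinearMap.BilinForm.toMatrix e B₀ =
      Matrix.kroneckerMap (· * ·) (Matrix.of fun i j => τ (c i * c j)) (1 : Matrix n n F) := by
    ext ⟨i, i'⟩ ⟨j, j'⟩
    rw [LinearMap.BilinForm.toMatrix_apply, hB₀, he, Module.Basis.smulTower_apply, Module.Basis.smulTower_apply]
    simp only [map_smul, LinearMap.smul_apply, smul_eq_mul, hD, Matrix.kroneckerMap_apply, Matrix.of_apply,
      Matrix.one_apply]
    by_cases hij : i' = j'
    · simp only [hij, if_true, mul_one]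
      rw [mul_comm]
    · simp only [hij, if_false, mul_zero, map_zero]
  rw [h1, Matrix.det_mul, h2]
  have h3 : (Matrix.kroneckerMap (· * ·) (Matrix.of fun i j => τ (c i * c j)) (1 : Matrix n n F)).det =
      (Matrix.of fun i j => τ (c i * c j)).det ^ Fintype.card n := by
    have := Matrix.det_kronecker (Matrix.of fun i j => τ (c i * c j)) (1 : Matrix n n F)
    rw [Matrix.det_one, one_pow, mul_one] at this
    exact this
  rw [h3]
  congr 1
  rw [LinearMap.det_toMatrix e TF]
  have h4 : LinearMap.det TF = Algebra.norm F (LinearMap.det T) := LinearMap.det_restrictScalars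
  rw [h4]
  congr 1
  exact LinearMap.det_toLin b G

end gram

section norm

variable {F E : Type*} [Field F] [Field E] [Algebra F E] [Fintype F] [Fintype E]

/-- A nonzero element of a quadratic extension of finite fields of odd characteristic whose norm is a
square is a square. -/
theorem isSquare_of_norm (hE : finrank F E = 2) (h2 : (2 : F) ≠ 0) {x : E} (hx : x ≠ 0)
    (h : IsSquare (Algebra.norm F x)) : IsSquare x := by
  classical
  obtain ⟨t, ht⟩ := h
  have hc : Nat.card E = Nat.card F ^ 2 := by
    rw [Module.natCard_eq_pow_finrank (K := F) (V := E), hE]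
  set q := Nat.card F with hq
  have hqF : Fintype.card F = q := by rw [hq, Nat.card_eq_fintype_card]
  have hq1 : 1 < q := by
    rw [← hqF]
    exact Fintype.one_lt_card
  have hE2 : (2 : E) ≠ 0 := by
    intro h3
    apply h2
    have : algebraMap F E 2 = 0 := by rw [map_ofNat]; exact h3
    exact (map_eq_zero _).1 this
  have hchar : ringChar E ≠ 2 := by
    intro h3
    apply hE2
    haveI : CharP E 2 := by
      rw [← h3]
      exact ringChar.charP E
    exact CharTwo.two_eq_zero
  have hqodd : Odd q := by
    have hF2 : ringChar F ≠ 2 := by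
      intro h3
      apply h2
      haveI : CharP F 2 := by
        rw [← h3]
        exact ringChar.charP F
      exact CharTwo.two_eq_zero
    rw [← hqF]
    exact Nat.odd_iff.2 (FiniteField.odd_card_of_char_ne_two hF2)
  rw [FiniteField.isSquare_iff hchar hx, ← Nat.card_eq_fintype_card, hc]
  have hN := FiniteField.algebraMap_norm_eq_pow (K := F) (K' := E) (x := x)
  rw [hc, ← hq] at hN
  obtain ⟨k, hk⟩ := hqodd
  have hexp1 : (q ^ 2 - 1) / (q - 1) = q + 1 := by
    have : q ^ 2 - 1 = (q + 1) * (q - 1) := by
      rw [hk]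
      simp only [Nat.add_sub_cancel]
      rw [show (2 * k + 1) ^ 2 - 1 = (2 * k + 1 + 1) * (2 * k) by
        have : (2 * k + 1) ^ 2 = (2 * k + 1 + 1) * (2 * k) + 1 := by ring
        omega]
    rw [this]
    exact Nat.mul_div_cancel _ (by omega)
  rw [hexp1, ht, map_mul] at hN
  have hexp2 : q ^ 2 / 2 = (q + 1) * k := by
    rw [hk]
    have : (2 * k + 1) ^ 2 = 2 * ((2 * k + 1 + 1) * k) + 1 := by ring
    rw [this]
    omega
  have ht0 : t ≠ 0 := by
    rintro rfl
    rw [map_zero, mul_zero] at hN
    exact pow_ne_zero _ hx hN.symm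
  have hqk : q - 1 = 2 * k := by omega
  rw [hexp2, pow_mul, ← hN, ← map_mul, ← map_pow, ← pow_two, ← pow_mul, ← hqk]
  have := FiniteField.pow_card_sub_one_eq_one t ht0
  rw [hqF] at this
  rw [this, map_one]

/-- The norm criterion. -/
theorem isSquare_norm_iff (hE : finrank F E = 2) (h2 : (2 : F) ≠ 0) {x : E} (hx : x ≠ 0) :
    IsSquare (Algebra.norm F x) ↔ IsSquare x := by
  refine ⟨isSquare_of_norm hE h2 hx, ?_⟩
  rintro ⟨y, rfl⟩
  rw [map_mul]
  exact ⟨_, rfl⟩

/-- Every element of the base is a square in a quadratic extension. -/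
theorem isSquare_algebraMap (hE : finrank F E = 2) (h2 : (2 : F) ≠ 0) {x : F} (hx : x ≠ 0) :
    IsSquare (algebraMap F E x) := by
  apply isSquare_of_norm hE h2
  · exact (map_ne_zero _).2 hx
  · rw [Algebra.norm_algebraMap, hE, pow_two]
    exact ⟨_, rfl⟩

end norm

section core

variable {F : Type*} [Field F] [Fintype F] {E : Type*} [Field E] [Algebra F E] [Fintype E]
  {V V' : Type*} [AddCommGroup V] [Module F V] [Module E V] [IsScalarTower F E V]
  [AddCommGroup V'] [Module F V'] [Module E V'] [IsScalarTower F E V'] [FiniteDimensional F V]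
  [FiniteDimensional F V']

/-- The main transfer: `F`-isometric pairs are `E`-isometric. -/
theorem conj_core (hE : finrank F E = 2) (h2 : (2 : F) ≠ 0)
    {B : LinearMap.BilinForm F V} {B' : LinearMap.BilinForm F V'} (hS : B.IsSymm) (hN : B.Nondegenerate)
    (hS' : B'.IsSymm) (hN' : B'.Nondegenerate)
    (hsa : ∀ (a : E) (u v : V), B (a • u) v = B u (a • v))
    (hsa' : ∀ (a : E) (u v : V'), B' (a • u) v = B' u (a • v))
    (θ : V ≃ₗ[F] V') (hθ : ∀ u v, B' (θ u) (θ v) = B u v) :
    ∃ h : V ≃ₗ[F] V', (∀ u v, B' (h u) (h v) = B u v) ∧ ∀ (a : E) v, h (a • v) = a • h v := by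
  classical
  haveI : FiniteDimensional F E := Module.finite_of_finrank_pos (by rw [hE]; norm_num)
  haveI : FiniteDimensional E V := FiniteDimensional.right F E V
  haveI : FiniteDimensional E V' := FiniteDimensional.right F E V'
  obtain ⟨τ, hτ⟩ := exists_tau (F := F) (L := E)
  set β := betaS B hsa τ hτ with hβ
  set β' := betaS B' hsa' τ hτ with hβ'
  have hβS : β.IsSymm := betaS_symm hsa τ hτ hS
  have hβS' : β'.IsSymm := betaS_symm hsa' τ hτ hS'
  have hβN : β.Nondegenerate := betaS_nondeg hsa τ hτ hS hN
  have hβN' : β'.Nondegenerate := betaS_nondeg hsa' τ hτ hS' hN'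
  have hB : ∀ u v, B u v = τ (β u v) := form_eq_oneS hsa τ hτ
  have hB' : ∀ u v, B' u v = τ (β' u v) := form_eq_oneS hsa' τ hτ
  have hdim : finrank E V = finrank E V' := by
    have h1 := Module.finrank_mul_finrank F E V
    have h3 := Module.finrank_mul_finrank F E V'
    rw [hE] at h1 h3
    have h4 := θ.finrank_eq
    omega
  let c := finBasis F E
  let b := finBasis E V
  let b' := finBasis E V'
  have hdet := det_gram_tower c b τ β B hB
  have hdet' := det_gram_tower c b' τ β' B' hB'
  obtain ⟨u, hu, hue⟩ := det_gram_change ((c.smulTower b).map θ) (c.smulTower b') B'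
  have hmap : LinearMap.BilinForm.toMatrix ((c.smulTower b).map θ) B' =
      LinearMap.BilinForm.toMatrix (c.smulTower b) B := by
    ext i j
    rw [LinearMap.BilinForm.toMatrix_apply, LinearMap.BilinForm.toMatrix_apply, Module.Basis.map_apply,
      Module.Basis.map_apply, hθ]
  rw [hmap, hdet, hdet'] at hue
  simp only [Fintype.card_fin] at hue
  set D := (Matrix.of fun i j => τ (c i * c j)).det with hD
  have hpw : D ^ finrank E V' = D ^ finrank E V := by rw [hdim]
  rw [hpw] at hue
  set G := LinearMap.BilinForm.toMatrix b β with hG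
  set G' := LinearMap.BilinForm.toMatrix b' β' with hG'
  have hne : (LinearMap.BilinForm.toMatrix (c.smulTower b) B).det ≠ 0 :=
    (nondegenerate_iff_det _ B).1 hN
  rw [hdet] at hne
  simp only [Fintype.card_fin] at hne
  have hD0 : D ^ finrank E V ≠ 0 := left_ne_zero_of_mul hne
  have hN0 : Algebra.norm F G.det ≠ 0 := right_ne_zero_of_mul hne
  have hcancel : Algebra.norm F G'.det = u * u * Algebra.norm F G.det := by
    apply mul_left_cancel₀ hD0
    rw [hue]
    ring
  have hG0 : G.det ≠ 0 := (nondegenerate_iff_det b β).1 hβN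
  have hG0' : G'.det ≠ 0 := (nondegenerate_iff_det b' β').1 hβN'
  have hsq : IsSquare (G.det * G'.det) := by
    apply isSquare_of_norm hE h2 (mul_ne_zero hG0 hG0')
    rw [map_mul, hcancel]
    exact ⟨u * Algebra.norm F G.det, by ring⟩
  have hE2 : (2 : E) ≠ 0 := by
    intro h3
    apply h2
    have : algebraMap F E 2 = 0 := by rw [map_ofNat]; exact h3
    exact (map_eq_zero _).1 this
  obtain ⟨g, hg⟩ := exists_isometry hE2 β β' hβN hβN' hβS hβS' hdim hsq
  refine ⟨g.restrictScalars F, fun x y => ?_, fun a v => ?_⟩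
  · rw [hB', hB]
    exact congrArg τ (hg x y)
  · exact g.map_smul a v

end core

end Cfsg.Agent.Lib.ElusK2.SymBeta
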