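import Mathlib
import Cfsg.Agent.Lib.ElusK2.SymBeta

/-!
# Self-adjoint square roots of a nonsquare are conjugate under the isometry group
-/

set_option autoImplicit false

namespace Cfsg.Agent.Lib.ElusK2.Conj

open Module Polynomial Cfsg.Agent.Lib.ElusK2.SymBeta

variable {F : Type*} [Field F] [Fintype F] {V : Type*} [AddCommGroup V] [Module F V] [FiniteDimensional F V]

/-- `X² - δ` is irreducible for a nonsquare `δ`. -/
theorem irreducible_sq {δ : F} (hδ : ∀ c : F, c ^ 2 ≠ δ) : Irreducible (X ^ 2 - C δ : F[X]) := by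
  have hd : (X ^ 2 - C δ : F[X]).natDegree = 2 := natDegree_X_pow_sub_C
  apply irreducible_of_degree_le_three_of_not_isRoot
  · rw [hd]
    simp
  · intro x hx
    apply hδ x
    have h1 : x ^ 2 - δ = 0 := by
      simpa [Polynomial.IsRoot] using hx
    exact sub_eq_zero.1 h1

/-- The main conjugacy theorem. -/
theorem conj_of_sq (h2 : (2 : F) ≠ 0) {B : LinearMap.BilinForm F V} (hS : B.IsSymm) (hN : B.Nondegenerate)
    {δ : F} (hδ : ∀ c : F, c ^ 2 ≠ δ) {A A' : V →ₗ[F] V} (hA : ∀ v, A (A v) = δ • v)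
    (hA' : ∀ v, A' (A' v) = δ • v) (hsa : ∀ u v, B (A u) v = B u (A v))
    (hsa' : ∀ u v, B (A' u) v = B u (A' v)) :
    ∃ h : V ≃ₗ[F] V, (∀ u v, B (h u) (h v) = B u v) ∧ ∀ v, h (A v) = A' (h v) := by
  classical
  let f : F[X] := X ^ 2 - C δ
  have hf0 : f ≠ 0 := X_pow_sub_C_ne_zero (by norm_num) δ
  have hfm : f.Monic := monic_X_pow_sub_C δ (by norm_num)
  have hd : f.natDegree = 2 := natDegree_X_pow_sub_C
  haveI : Fact (Irreducible f) := ⟨irreducible_sq hδ⟩
  let E := AdjoinRoot f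
  let pb : PowerBasis F E := AdjoinRoot.powerBasis hf0
  have hfin : finrank F E = 2 := by
    rw [pb.finrank]
    change (AdjoinRoot.powerBasis hf0).dim = 2
    rw [AdjoinRoot.powerBasis_dim, hd]
  haveI : FiniteDimensional F E := Module.finite_of_finrank_pos (by rw [hfin]; norm_num)
  haveI : Finite E := Module.finite_of_finite F
  letI : Fintype E := Fintype.ofFinite E
  have hmin : minpoly F pb.gen = f := by
    have h1 := AdjoinRoot.minpoly_powerBasis_gen_of_monic hfm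
    exact h1
  have hlift : ∀ A₁ : V →ₗ[F] V, (∀ v, A₁ (A₁ v) = δ • v) → ∃ ρ : E →ₐ[F] Module.End F V,
      ρ pb.gen = A₁ ∧ ∀ e : E, ∃ s t : F, ρ e = s • (1 : Module.End F V) + t • A₁ := by
    intro A₁ hA₁
    have hy : aeval (A₁ : Module.End F V) (minpoly F pb.gen) = 0 := by
      rw [hmin]
      simp only [f, map_sub, map_pow, aeval_X, aeval_C]
      refine LinearMap.ext fun v => ?_
      rw [LinearMap.sub_apply, pow_two, Module.End.mul_apply, hA₁]
      simp [Algebra.algebraMap_eq_smul_one]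
    refine ⟨pb.lift A₁ hy, pb.lift_gen _ _, fun e => ?_⟩
    obtain ⟨P, hPd, hP⟩ := pb.exists_eq_aeval e
    have hPd' : P.natDegree ≤ 1 := by
      have h3 : pb.dim = 2 := by
        change (AdjoinRoot.powerBasis hf0).dim = 2
        rw [AdjoinRoot.powerBasis_dim, hd]
      rw [h3] at hPd
      omega
    obtain ⟨t, s, rfl⟩ := exists_eq_X_add_C_of_natDegree_le_one hPd'
    refine ⟨s, t, ?_⟩
    rw [hP, ← aeval_algHom_apply, pb.lift_gen]
    simp only [map_add, map_mul, aeval_C, aeval_X]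
    rw [add_comm, Algebra.algebraMap_eq_smul_one, Algebra.algebraMap_eq_smul_one, smul_mul_assoc, one_mul]
  obtain ⟨ρ₁, hρ₁, hs₁⟩ := hlift A hA
  obtain ⟨ρ₂, hρ₂, hs₂⟩ := hlift A' hA'
  let M₁ : Module E V := Module.compHom V ρ₁.toRingHom
  let M₂ : Module E V := Module.compHom V ρ₂.toRingHom
  have T₁ : @IsScalarTower F E V _ M₁.toSMul _ := by
    refine @IsScalarTower.mk F E V _ M₁.toSMul _ fun c e v => ?_
    change ρ₁ (c • e) v = c • ρ₁ e v
    rw [map_smul]
    rfl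
  have T₂ : @IsScalarTower F E V _ M₂.toSMul _ := by
    refine @IsScalarTower.mk F E V _ M₂.toSMul _ fun c e v => ?_
    change ρ₂ (c • e) v = c • ρ₂ e v
    rw [map_smul]
    rfl
  have hsa₁ : ∀ (e : E) (u v : V), B (ρ₁ e u) v = B u (ρ₁ e v) := by
    intro e u v
    obtain ⟨s, t, hst⟩ := hs₁ e
    rw [hst]
    simp [hsa]
  have hsa₂ : ∀ (e : E) (u v : V), B (ρ₂ e u) v = B u (ρ₂ e v) := by
    intro e u v
    obtain ⟨s, t, hst⟩ := hs₂ e
    rw [hst]
    simp [hsa']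
  obtain ⟨h, hh, hL⟩ := @conj_core F _ _ E _ _ _ V V _ _ M₁ T₁ _ _ M₂ T₂ _ _ hfin h2 B B hS hN hS hN hsa₁ hsa₂
    (LinearEquiv.refl F V) (fun _ _ => rfl)
  refine ⟨h, hh, fun v => ?_⟩
  have h3 := hL pb.gen v
  have h4 : h (ρ₁ pb.gen v) = ρ₂ pb.gen (h v) := h3
  rwa [hρ₁, hρ₂] at h4

end Cfsg.Agent.Lib.ElusK2.Conj
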