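import Mathlib
import Cfsg.Agent.Lib.ElusQ.Oz

/-!
# Self-adjoint square roots of a nonsquare adapted to an isometry with scalar square
-/

set_option autoImplicit false

namespace Cfsg.Agent.Lib.ElusK2.Part

open Module Cfsg.Agent.Lib.ElusF.Form Cfsg.Agent.Lib.ElusL.Basic Cfsg.Agent.Lib.ElusQ.Disc
  Cfsg.Agent.Lib.QuadDisc.Basic Cfsg.Agent.Lib.QuadDisc.Classify Cfsg.Agent.Lib.ElusF.Step

variable {F V : Type*} [Field F] [AddCommGroup V] [Module F V] {B : LinearMap.BilinForm F V}

/-- `a` is a square root of `δ` supported on `W`. -/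
structure IsPart (B : LinearMap.BilinForm F V) (δ : F) (W : Submodule F V) (a : V →ₗ[F] V) : Prop where
  mem : ∀ v, a v ∈ W
  orth : ∀ v, (∀ w ∈ W, B v w = 0) → a v = 0
  sa : ∀ u v, B (a u) v = B u (a v)
  sq : ∀ v ∈ W, a (a v) = δ • v

theorem part_bot (δ : F) : IsPart B δ ⊥ 0 where
  mem _ := Submodule.zero_mem _
  orth _ _ := rfl
  sa u v := by simp
  sq v hv := by
    rw [(Submodule.mem_bot F).1 hv]
    simp

theorem part_sup (hS : B.IsSymm) {δ : F} {W₁ W₂ : Submodule F V} {a₁ a₂ : V →ₗ[F] V} (h₁ : IsPart B δ W₁ a₁)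
    (h₂ : IsPart B δ W₂ a₂) (horth : ∀ x ∈ W₁, ∀ y ∈ W₂, B x y = 0) : IsPart B δ (W₁ ⊔ W₂) (a₁ + a₂) where
  mem v := Submodule.add_mem _ (Submodule.mem_sup_left (h₁.mem v)) (Submodule.mem_sup_right (h₂.mem v))
  orth v hv := by
    rw [LinearMap.add_apply, h₁.orth v fun w hw => hv w (Submodule.mem_sup_left hw),
      h₂.orth v fun w hw => hv w (Submodule.mem_sup_right hw), add_zero]
  sa u v := by
    simp only [LinearMap.add_apply, map_add, h₁.sa, h₂.sa]
  sq v hv := by
    obtain ⟨w₁, hw₁, w₂, hw₂, rfl⟩ := Submodule.mem_sup.1 hv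
    have h12 : ∀ y ∈ W₂, a₁ y = 0 := fun y hy => h₁.orth y fun w hw => by
      rw [hS.eq]
      exact horth w hw y hy
    have h21 : ∀ y ∈ W₁, a₂ y = 0 := fun y hy => h₂.orth y fun w hw => horth y hy w hw
    simp only [LinearMap.add_apply, map_add, h12 _ hw₂, h21 _ hw₁, h12 _ (h₂.mem _), h21 _ (h₁.mem _), add_zero,
      zero_add, map_zero, h₁.sq _ hw₁, h₂.sq _ hw₂, smul_add]

/-- The operator on a plane. -/
noncomputable def planeOp (B : LinearMap.BilinForm F V) (u₁ u₂ : V) (s m : F) : V →ₗ[F] V :=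
  ((s / B u₁ u₁) • B.flip u₁ + m • B.flip u₂).smulRight u₁ +
    (m • B.flip u₁ - (s / B u₂ u₂) • B.flip u₂).smulRight u₂

theorem planeOp_apply (u₁ u₂ : V) (s m : F) (v : V) :
    planeOp B u₁ u₂ s m v = ((s / B u₁ u₁) * B v u₁ + m * B v u₂) • u₁ +
      (m * B v u₁ - (s / B u₂ u₂) * B v u₂) • u₂ := by
  simp [planeOp]

theorem planeOp_left (hS : B.IsSymm) {u₁ u₂ : V} (hc₁ : B u₁ u₁ ≠ 0) (h12 : B u₁ u₂ = 0) (s m : F) :
    planeOp B u₁ u₂ s m u₁ = s • u₁ + (m * B u₁ u₁) • u₂ := by
  rw [planeOp_apply, h12]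
  congr 2
  · field_simp
    ring
  · ring

theorem planeOp_right (hS : B.IsSymm) {u₁ u₂ : V} (hc₂ : B u₂ u₂ ≠ 0) (h12 : B u₁ u₂ = 0) (s m : F) :
    planeOp B u₁ u₂ s m u₂ = (m * B u₂ u₂) • u₁ + (-s) • u₂ := by
  have h21 : B u₂ u₁ = 0 := by rw [hS.eq]; exact h12
  rw [planeOp_apply, h21]
  congr 2
  · ring
  · field_simp
    ring

theorem plane_part (hS : B.IsSymm) {u₁ u₂ : V} (hc₁ : B u₁ u₁ ≠ 0) (hc₂ : B u₂ u₂ ≠ 0) (h12 : B u₁ u₂ = 0)
    {s m δ : F} (hs : s ^ 2 + m ^ 2 * (B u₁ u₁ * B u₂ u₂) = δ) :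
    IsPart B δ (Submodule.span F {u₁, u₂}) (planeOp B u₁ u₂ s m) where
  mem v := by
    rw [planeOp_apply]
    exact Submodule.add_mem _
      (Submodule.smul_mem _ _ (Submodule.subset_span (by simp)))
      (Submodule.smul_mem _ _ (Submodule.subset_span (by simp)))
  orth v hv := by
    rw [planeOp_apply, hv u₁ (Submodule.subset_span (by simp)), hv u₂ (Submodule.subset_span (by simp))]
    simp
  sa u v := by
    simp only [planeOp_apply, map_add, map_smul, LinearMap.add_apply, LinearMap.smul_apply, smul_eq_mul]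
    rw [hS.eq u₁ v, hS.eq u₂ v]
    ring
  sq v hv := by
    obtain ⟨α, β, rfl⟩ := Submodule.mem_span_pair.1 hv
    have e1 := planeOp_left hS hc₁ h12 s m
    have e2 := planeOp_right hS hc₂ h12 s m
    simp only [map_add, map_smul, e1, e2]
    subst hs
    module

/-- Nonsingular vectors in a nondegenerate subspace. -/
theorem exists_nonsing [FiniteDimensional F V] [Fintype F] (h2 : (2 : F) ≠ 0) (hS : B.IsSymm) {W : Submodule F V}
    (hW : Nd (fun u v => B u v) W) (hpos : 0 < finrank F W) : ∃ u ∈ W, B u u ≠ 0 := by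
  obtain ⟨e, he⟩ := exists_self_ne_zero h2 (B.restrict W) (restrict_nondeg hS hW) (restrict_isSymm B hS W) hpos
  exact ⟨e, e.2, he⟩

theorem finrank_pair {u₁ u₂ : V} (hc₁ : B u₁ u₁ ≠ 0) (hc₂ : B u₂ u₂ ≠ 0) (h12 : B u₁ u₂ = 0) (hS : B.IsSymm) :
    finrank F (Submodule.span F {u₁, u₂}) = 2 := by
  have h21 : B u₂ u₁ = 0 := by rw [hS.eq]; exact h12
  have hli : LinearIndependent F ![u₁, u₂] := by
    rw [LinearIndependent.pair_iff]
    intro s t hst
    have h3 := congrArg (fun w => B w u₁) hst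
    have h4 := congrArg (fun w => B w u₂) hst
    simp [h12, h21] at h3 h4
    exact ⟨h3.resolve_right hc₁, h4.resolve_right hc₂⟩
  have := finrank_span_eq_card hli
  rw [Matrix.range_cons, Matrix.range_cons, Matrix.range_empty, Set.union_empty, Set.singleton_union] at this
  simpa using this

theorem nd_pair {u₁ u₂ : V} (hc₁ : B u₁ u₁ ≠ 0) (hc₂ : B u₂ u₂ ≠ 0) (h12 : B u₁ u₂ = 0) (hS : B.IsSymm) :
    Nd (fun u v => B u v) (Submodule.span F {u₁, u₂}) := by
  have h21 : B u₂ u₁ = 0 := by rw [hS.eq]; exact h12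
  intro u hu h
  obtain ⟨α, β, rfl⟩ := Submodule.mem_span_pair.1 hu
  have h3 := h u₁ (Submodule.subset_span (by simp))
  have h4 := h u₂ (Submodule.subset_span (by simp))
  simp [h12, h21] at h3 h4
  rw [h3.resolve_right hc₁, h4.resolve_right hc₂]
  simp

section main

variable [FiniteDimensional F V]

/-- Square roots of `δ` on nondegenerate subspaces of even dimension. -/
theorem even_part [Fintype F] (h2 : (2 : F) ≠ 0) (hS : B.IsSymm) (hN : B.Nondegenerate) {δ : F} (hδ : δ ≠ 0) :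
    ∀ (n : ℕ) (W : Submodule F V), finrank F W = 2 * n → Nd (fun u v => B u v) W → ∃ a, IsPart B δ W a := by
  classical
  have hB := fm_of_symm hS hN
  intro n
  induction n with
  | zero =>
    intro W hd _
    have hW : W = ⊥ := Submodule.finrank_eq_zero.1 (by omega)
    rw [hW]
    exact ⟨0, part_bot δ⟩
  | succ n ih =>
    intro W hd hW
    obtain ⟨u₁, hu₁, hc₁⟩ := exists_nonsing h2 hS hW (by omega)
    have hP₁ : Nd (fun u v => B u v) (Submodule.span F {u₁}) := by
      intro u hu h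
      obtain ⟨α, rfl⟩ := Submodule.mem_span_singleton.1 hu
      have h3 := h u₁ (Submodule.mem_span_singleton_self _)
      simp at h3
      rw [h3.resolve_right hc₁, zero_smul]
    have hP₁W : Submodule.span F {u₁} ≤ W := by
      rw [Submodule.span_singleton_le_iff_mem]
      exact hu₁
    have hW₁ := hB.nd_inf_orth hW hP₁ hP₁W
    have hdW₁ := hB.finrank_inf_orth hW hP₁W
    have hf1 : finrank F (Submodule.span F {u₁}) = 1 := finrank_span_singleton (by
      rintro rfl
      simp at hc₁)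
    obtain ⟨u₂, hu₂, hc₂⟩ := exists_nonsing h2 hS hW₁ (by omega)
    have h12 : B u₁ u₂ = 0 := by
      exact (hB.mem_orth.1 hu₂.2) u₁ (Submodule.mem_span_singleton_self _)
    have hP := nd_pair hc₁ hc₂ h12 hS
    have hPf := finrank_pair hc₁ hc₂ h12 hS
    have hPW : Submodule.span F {u₁, u₂} ≤ W := by
      rw [Submodule.span_le]
      rintro x (rfl | rfl)
      · exact hu₁
      · exact hu₂.1
    have hW₂ := hB.nd_inf_orth hW hP hPW
    have hdW₂ := hB.finrank_inf_orth hW hPW
    obtain ⟨a₂, ha₂⟩ := ih _ (by omega) hW₂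
    obtain ⟨s, m, hsm⟩ := exists_sum_sq h2 1 (B u₁ u₁ * B u₂ u₂) δ one_ne_zero (mul_ne_zero hc₁ hc₂)
    have ha₁ : IsPart B δ (Submodule.span F {u₁, u₂}) (planeOp B u₁ u₂ s m) :=
      plane_part hS hc₁ hc₂ h12 (by rw [← hsm]; ring)
    have hsup := (hB.isCompl_inf_orth hP hPW).1
    refine ⟨planeOp B u₁ u₂ s m + a₂, ?_⟩
    have := part_sup hS ha₁ ha₂ (fun x hx y hy => by
      exact (hB.mem_orth.1 hy.2) x hx)
    rwa [hsup] at this

/-- The anti-commuting condition. -/
theorem plane_anti (hS : B.IsSymm) {x : V →ₗ[F] V} (hiso : ∀ u v, B (x u) (x v) = B u v) (hx2 : ∀ v, x (x v) = - v)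
    (u : V) (s m : F) (v : V) :
    planeOp B u (x u) s m (x v) = - x (planeOp B u (x u) s m v) := by
  have e1 : B (x v) u = - B v (x u) := by
    have := hiso (x v) u
    rw [hx2, map_neg, LinearMap.neg_apply] at this
    exact this.symm
  have e2 : B (x v) (x u) = B v u := hiso v u
  have e3 : B (x u) (x u) = B u u := hiso u u
  rw [planeOp_apply, planeOp_apply, e1, e2, e3, map_add, map_smul, map_smul, hx2]
  module

/-- Isometries with square `-1` have adapted square roots. -/
theorem neg_part [Fintype F] (h2 : (2 : F) ≠ 0) (hS : B.IsSymm) (hN : B.Nondegenerate) {δ : F} (hδ : δ ≠ 0)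
    {x : V →ₗ[F] V} (hiso : ∀ u v, B (x u) (x v) = B u v) (hx2 : ∀ v, x (x v) = - v) :
    ∀ (n : ℕ) (W : Submodule F V), finrank F W < n → Nd (fun u v => B u v) W → Inv x W →
      ∃ a, IsPart B δ W a ∧ ∀ v, a (x v) = - x (a v) := by
  classical
  have hB := fm_of_symm hS hN
  have hinj : Function.Injective x := by
    intro u v huv
    have := congrArg x huv
    rw [hx2, hx2] at this
    exact neg_injective this
  intro n
  induction n with
  | zero =>
    intro W hd
    omega
  | succ n ih =>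
    intro W hd hW hWi
    rcases Nat.eq_zero_or_pos (finrank F W) with h0 | hpos
    · have hW0 : W = ⊥ := Submodule.finrank_eq_zero.1 h0
      rw [hW0]
      exact ⟨0, part_bot δ, fun v => by simp⟩
    obtain ⟨u, hu, hc⟩ := exists_nonsing h2 hS hW hpos
    have hxu : x u ∈ W := hWi u hu
    have h12 : B u (x u) = 0 := by
      have h3 := hiso u (x u)
      have e : B (x u) u = B u (x u) := hS.eq _ _
      rw [hx2, map_neg, e] at h3
      have h4 : (2 : F) * B u (x u) = 0 := by
        linear_combination -h3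
      exact (mul_eq_zero.1 h4).resolve_left h2
    have e3 : B (x u) (x u) = B u u := hiso u u
    have hc' : B (x u) (x u) ≠ 0 := by rwa [e3]
    have hP := nd_pair hc hc' h12 hS
    have hPf := finrank_pair hc hc' h12 hS
    have hPW : Submodule.span F {u, x u} ≤ W := by
      rw [Submodule.span_le]
      rintro y (rfl | rfl)
      · exact hu
      · exact hxu
    have hPi : Inv x (Submodule.span F {u, x u}) := by
      intro y hy
      obtain ⟨α, β, rfl⟩ := Submodule.mem_span_pair.1 hy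
      rw [Submodule.mem_span_pair]
      refine ⟨-β, α, ?_⟩
      rw [map_add, map_smul, map_smul, hx2]
      module
    have hW₂ := hB.nd_inf_orth hW hP hPW
    have hdW₂ := hB.finrank_inf_orth hW hPW
    have hW₂i : Inv x (W ⊓ hB.orth (Submodule.span F {u, x u})) :=
      hB.inv_inf hWi (hB.inv_orth hiso hinj hPi)
    obtain ⟨a₂, ha₂, ha₂x⟩ := ih _ (by omega) hW₂ hW₂i
    obtain ⟨s, m, hsm⟩ := exists_sum_sq h2 1 (B u u * B (x u) (x u)) δ one_ne_zero (mul_ne_zero hc hc')
    have ha₁ : IsPart B δ (Submodule.span F {u, x u}) (planeOp B u (x u) s m) :=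
      plane_part hS hc hc' h12 (by rw [← hsm]; ring)
    have hsup := (hB.isCompl_inf_orth hP hPW).1
    refine ⟨planeOp B u (x u) s m + a₂, ?_, fun v => ?_⟩
    · have := part_sup hS ha₁ ha₂ (fun y hy z hz => by
        exact (hB.mem_orth.1 hz.2) y hy)
      rwa [hsup] at this
    · rw [LinearMap.add_apply, LinearMap.add_apply, plane_anti hS hiso hx2, ha₂x, map_add, neg_add]

/-- Square roots adapted to an involution. -/
theorem pos_part [Fintype F] (h2 : (2 : F) ≠ 0) (hS : B.IsSymm) (hN : B.Nondegenerate) {δ : F} (hδ : δ ≠ 0)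
    {x : V →ₗ[F] V} (hiso : ∀ u v, B (x u) (x v) = B u v) (hx2 : ∀ v, x (x v) = v)
    (he : Even (finrank F (LinearMap.range (x - 1)))) (hev : Even (finrank F V)) :
    ∃ a, IsPart B δ ⊤ a ∧ ∀ v, a (x v) = x (a v) := by
  classical
  have hB := fm_of_symm hS hN
  let Vp : Submodule F V := LinearMap.ker (x - 1)
  let Vm : Submodule F V := LinearMap.range (x - 1)
  have hVp : ∀ v, v ∈ Vp ↔ x v = v := by
    intro v
    change (x - 1) v = 0 ↔ _
    rw [LinearMap.sub_apply, Module.End.one_apply, sub_eq_zero]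
  have hVm : ∀ v, v ∈ Vm → x v = - v := by
    rintro _ ⟨t, rfl⟩
    rw [LinearMap.sub_apply, Module.End.one_apply, map_sub, hx2, neg_sub]
  have horth : ∀ y ∈ Vp, ∀ z ∈ Vm, B y z = 0 := by
    intro y hy z hz
    have h3 := hiso y z
    rw [(hVp y).1 hy, hVm z hz, map_neg] at h3
    have h4 : (2 : F) * B y z = 0 := by linear_combination -h3
    exact (mul_eq_zero.1 h4).resolve_left h2
  have hsum : ∀ v : V, v = (2 : F)⁻¹ • (x v + v) - (2 : F)⁻¹ • ((x - 1) v) := by
    intro v
    rw [LinearMap.sub_apply, Module.End.one_apply, ← smul_sub]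
    have : x v + v - (x v - v) = (2 : F) • v := by
      rw [two_smul]
      abel
    rw [this, smul_smul, inv_mul_cancel₀ h2, one_smul]
  have hpm : ∀ v : V, x v + v ∈ Vp := by
    intro v
    rw [hVp, map_add, hx2, add_comm]
  have hmm : ∀ v : V, (x - 1) v ∈ Vm := fun v => ⟨v, rfl⟩
  have hNdp : Nd (fun u v => B u v) Vp := by
    intro u hu h
    apply hN.1 u
    intro v
    have h3 : B u (x v + v) = 0 := h _ (hpm v)
    rw [hsum v, map_sub, map_smul, map_smul, h3, horth u hu _ (hmm v)]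
    simp
  have hNdm : Nd (fun u v => B u v) Vm := by
    intro u hu h
    apply hN.1 u
    intro v
    have h3 : B u (x v + v) = 0 := by
      rw [hS.eq]
      exact horth _ (hpm v) u hu
    have h4 : B u ((x - 1) v) = 0 := h _ (hmm v)
    rw [hsum v, map_sub, map_smul, map_smul, h3, h4]
    simp
  have hrk := LinearMap.finrank_range_add_finrank_ker (x - 1)
  have hep : Even (finrank F Vp) := by
    have h3 : finrank F (LinearMap.range (x - 1)) + finrank F Vp = finrank F V := hrk
    rw [← h3] at hev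
    exact (Nat.even_add.1 hev).1 he
  obtain ⟨np, hnp⟩ := hep
  obtain ⟨nm, hnm⟩ := he
  obtain ⟨ap, hap⟩ := even_part h2 hS hN hδ np Vp (by rw [hnp]; ring) hNdp
  obtain ⟨am, ham⟩ := even_part h2 hS hN hδ nm Vm (by rw [hnm]; ring) hNdm
  have htop : Vp ⊔ Vm = ⊤ := by
    rw [eq_top_iff]
    intro v _
    rw [hsum v]
    exact Submodule.sub_mem _ (Submodule.mem_sup_left (Submodule.smul_mem _ _ (hpm v)))
      (Submodule.mem_sup_right (Submodule.smul_mem _ _ (hmm v)))
  refine ⟨ap + am, ?_, fun v => ?_⟩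
  · have := part_sup hS hap ham horth
    rwa [htop] at this
  · have h3 : ap (x v) = ap v := by
      have h4 : ap (x v - v) = 0 := hap.orth _ fun w hw => by
        rw [map_sub, LinearMap.sub_apply, sub_eq_zero]
        nth_rw 1 [← (hVp w).1 hw]
        exact hiso v w
      rwa [map_sub, sub_eq_zero] at h4
    have h4 : am (x v) = - am v := by
      have h5 : am (x v + v) = 0 := ham.orth _ fun w hw => by
        rw [map_add, LinearMap.add_apply]
        have h6 := hiso v w
        rw [hVm w hw, map_neg] at h6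
        linear_combination -h6
      rwa [map_add, add_eq_zero_iff_eq_neg] at h5
    rw [LinearMap.add_apply, LinearMap.add_apply, h3, h4, map_add, (hVp _).1 (hap.mem v), hVm _ (ham.mem v)]

/-- The reflection in a nonsingular vector. -/
noncomputable def rOp (B : LinearMap.BilinForm F V) (u : V) : V →ₗ[F] V :=
  LinearMap.id - ((2 / B u u) • B.flip u).smulRight u

theorem rOp_apply (u v : V) : rOp B u v = v - ((2 / B u u) * B v u) • u := by
  simp [rOp]

theorem rOp_self (h2 : (2 : F) ≠ 0) {u : V} (hc : B u u ≠ 0) : rOp B u u = - u := by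
  rw [rOp_apply, div_mul_cancel₀ _ hc, two_smul]
  abel

theorem rOp_fix {u v : V} (h : B v u = 0) : rOp B u v = v := by
  rw [rOp_apply, h]
  simp

theorem rOp_rOp (h2 : (2 : F) ≠ 0) {u : V} (hc : B u u ≠ 0) (v : V) : rOp B u (rOp B u v) = v := by
  have h3 : (2 / B u u) * B u u = 2 := div_mul_cancel₀ _ hc
  rw [rOp_apply, rOp_apply]
  simp only [map_sub, map_smul, LinearMap.sub_apply, LinearMap.smul_apply, smul_eq_mul]
  have h4 : (2 / B u u * B v u) + (2 / B u u * (B v u - 2 / B u u * B v u * B u u)) = 0 := by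
    linear_combination (- (2 / B u u) * B v u) * h3
  rw [sub_sub, ← add_smul, h4, zero_smul, sub_zero]

theorem rOp_iso (hS : B.IsSymm) {u : V} (hc : B u u ≠ 0) (v w : V) : B (rOp B u v) (rOp B u w) = B v w := by
  have h3 : (2 / B u u) * B u u = 2 := div_mul_cancel₀ _ hc
  have e : B u w = B w u := hS.eq _ _
  rw [rOp_apply, rOp_apply]
  simp only [map_sub, map_smul, LinearMap.sub_apply, LinearMap.smul_apply, smul_eq_mul, e]
  linear_combination (B v u * (2 / B u u) * B w u) * h3

theorem rOp_sa (h2 : (2 : F) ≠ 0) (hS : B.IsSymm) {u : V} (hc : B u u ≠ 0) (v w : V) :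
    B (rOp B u v) w = B v (rOp B u w) := by
  nth_rw 2 [← rOp_rOp h2 hc v]
  rw [rOp_iso hS hc]

/-- The reflection on the plane operator. -/
theorem rOp_plane (hS : B.IsSymm) {u₁ u₂ : V} (hc₁ : B u₁ u₁ ≠ 0) (h12 : B u₁ u₂ = 0) (h2 : (2 : F) ≠ 0) (s m : F)
    (v : V) : rOp B u₁ (planeOp B u₁ u₂ s m v) = planeOp B u₁ u₂ s (-m) (rOp B u₁ v) := by
  have h21 : B u₂ u₁ = 0 := by rw [hS.eq]; exact h12
  have h3 : (2 / B u₁ u₁) * B u₁ u₁ = 2 := div_mul_cancel₀ _ hc₁
  have e1 : B (rOp B u₁ v) u₁ = - B v u₁ := by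
    rw [rOp_apply]
    simp only [map_sub, map_smul, LinearMap.sub_apply, LinearMap.smul_apply, smul_eq_mul]
    linear_combination (- B v u₁) * h3
  have e2 : B (rOp B u₁ v) u₂ = B v u₂ := by
    rw [rOp_apply]
    simp only [map_sub, map_smul, LinearMap.sub_apply, LinearMap.smul_apply, smul_eq_mul, h12]
    ring
  rw [planeOp_apply, planeOp_apply, e1, e2, map_add, map_smul, map_smul, rOp_self h2 hc₁, rOp_fix h21]
  module

/-- The data of an adapted square root. -/
structure Good (B : LinearMap.BilinForm F V) (δ ε : F) (x a : V →ₗ[F] V) : Prop where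
  sa : ∀ u v, B (a u) v = B u (a v)
  sq : ∀ v, a (a v) = δ • v
  comm : ∀ v, a (x v) = ε • x (a v)

theorem IsPart.good_top {δ ε : F} {x a : V →ₗ[F] V} (h : IsPart B δ ⊤ a) (hc : ∀ v, a (x v) = ε • x (a v)) :
    Good B δ ε x a :=
  ⟨h.sa, fun v => h.sq v Submodule.mem_top, hc⟩

/-- The output for an involution. -/
theorem exists_good_pos [Fintype F] (h2 : (2 : F) ≠ 0) (hS : B.IsSymm) (hN : B.Nondegenerate) {δ : F} (hδ : δ ≠ 0)
    {x : V →ₗ[F] V} (hiso : ∀ u v, B (x u) (x v) = B u v) (hx2 : ∀ v, x (x v) = v)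
    (he : Even (finrank F (LinearMap.range (x - 1)))) (hev : Even (finrank F V)) (hpos : 0 < finrank F V) :
    ∃ (u : V) (a a' : V →ₗ[F] V), B u u ≠ 0 ∧ Good B δ 1 x a ∧ Good B δ 1 x a' ∧
      ∀ v, rOp B u (a v) = a' (rOp B u v) := by
  classical
  obtain ⟨a, ha, hcx⟩ := pos_part h2 hS hN hδ hiso hx2 he hev
  obtain ⟨e, he0⟩ := exists_self_ne_zero h2 B hN hS hpos
  have hex : ∃ u, B u u ≠ 0 ∧ ∃ ε : F, ε ^ 2 = 1 ∧ x u = ε • u := by
    by_contra hcon
    push Not at hcon
    have hp : B (x e + e) (x e + e) = 0 := by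
      by_contra h3
      exact hcon _ h3 1 (by ring) (by rw [map_add, hx2, one_smul, add_comm])
    have hm : B (x e - e) (x e - e) = 0 := by
      by_contra h3
      refine hcon _ h3 (-1) (by ring) ?_
      rw [map_sub, hx2, neg_smul, one_smul, neg_sub]
    have e3 : B (x e) e = B e (x e) := hS.eq _ _
    have e4 : B (x e) (x e) = B e e := hiso e e
    simp only [map_add, map_sub, LinearMap.add_apply, LinearMap.sub_apply, e3, e4] at hp hm
    have h5 : (4 : F) * B e e = 0 := by linear_combination hp + hm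
    have h4 : (4 : F) ≠ 0 := by
      have : (4 : F) = 2 * 2 := by norm_num
      rw [this]
      exact mul_ne_zero h2 h2
    exact he0 ((mul_eq_zero.1 h5).resolve_left h4)
  obtain ⟨u, hc, ε, hε, hxu⟩ := hex
  have hrx : ∀ v, rOp B u (x v) = x (rOp B u v) := by
    intro v
    have h3 : B (x v) u = ε * B v u := by
      have h4 : u = ε • x u := by
        rw [hxu, smul_smul, ← pow_two, hε, one_smul]
      nth_rw 1 [h4]
      rw [map_smul, hiso]
      rfl
    rw [rOp_apply, rOp_apply, map_sub, map_smul, hxu, h3, smul_smul]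
    congr 2
    ring
  have hGa : Good B δ 1 x a := ha.good_top fun v => by rw [hcx, one_smul]
  refine ⟨u, a, (rOp B u) ∘ₗ a ∘ₗ (rOp B u), hc, hGa, ⟨fun v w => ?_, fun v => ?_, fun v => ?_⟩, fun v => ?_⟩
  · simp only [LinearMap.comp_apply]
    rw [rOp_sa h2 hS hc, hGa.sa, rOp_sa h2 hS hc]
  · simp only [LinearMap.comp_apply]
    rw [rOp_rOp h2 hc, hGa.sq, map_smul, rOp_rOp h2 hc]
  · simp only [LinearMap.comp_apply, one_smul]
    rw [hrx, hcx, hrx]
  · simp only [LinearMap.comp_apply]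
    rw [rOp_rOp h2 hc]

/-- The output for an isometry with square `-1`. -/
theorem exists_good_neg [Fintype F] (h2 : (2 : F) ≠ 0) (hS : B.IsSymm) (hN : B.Nondegenerate) {δ : F} (hδ : δ ≠ 0)
    {x : V →ₗ[F] V} (hiso : ∀ u v, B (x u) (x v) = B u v) (hx2 : ∀ v, x (x v) = - v) (hpos : 0 < finrank F V) :
    ∃ (u : V) (a a' : V →ₗ[F] V), B u u ≠ 0 ∧ Good B δ (-1) x a ∧ Good B δ (-1) x a' ∧
      ∀ v, rOp B u (a v) = a' (rOp B u v) := by
  classical
  have hB := fm_of_symm hS hN
  have hinj : Function.Injective x := by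
    intro u v huv
    have := congrArg x huv
    rw [hx2, hx2] at this
    exact neg_injective this
  obtain ⟨u, hc⟩ := exists_self_ne_zero h2 B hN hS hpos
  have h12 : B u (x u) = 0 := by
    have h3 := hiso u (x u)
    have e : B (x u) u = B u (x u) := hS.eq _ _
    rw [hx2, map_neg, e] at h3
    have h4 : (2 : F) * B u (x u) = 0 := by
      linear_combination -h3
    exact (mul_eq_zero.1 h4).resolve_left h2
  have e3 : B (x u) (x u) = B u u := hiso u u
  have hc' : B (x u) (x u) ≠ 0 := by rwa [e3]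
  have hP := nd_pair hc hc' h12 hS
  have hPi : Inv x (Submodule.span F {u, x u}) := by
    intro y hy
    obtain ⟨α, β, rfl⟩ := Submodule.mem_span_pair.1 hy
    rw [Submodule.mem_span_pair]
    refine ⟨-β, α, ?_⟩
    rw [map_add, map_smul, map_smul, hx2]
    module
  have hW₂ := hB.nd_orth hP
  have hW₂i : Inv x (hB.orth (Submodule.span F {u, x u})) := hB.inv_orth hiso hinj hPi
  obtain ⟨a₂, ha₂, ha₂x⟩ := neg_part h2 hS hN hδ hiso hx2 _ _ (Nat.lt_succ_self _) hW₂ hW₂i
  obtain ⟨s, m, hsm⟩ := exists_sum_sq h2 1 (B u u * B (x u) (x u)) δ one_ne_zero (mul_ne_zero hc hc')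
  have hsup : Submodule.span F {u, x u} ⊔ hB.orth (Submodule.span F {u, x u}) = ⊤ := (hB.isCompl_orth hP).sup_eq_top
  have horth : ∀ y ∈ Submodule.span F {u, x u}, ∀ z ∈ hB.orth (Submodule.span F {u, x u}), B y z = 0 := by
    intro y hy z hz
    rw [hB.mem_orth] at hz
    exact hz y hy
  have hgood : ∀ t : F, t ^ 2 = m ^ 2 → Good B δ (-1) x (planeOp B u (x u) s t + a₂) := by
    intro t ht
    have ha₁ : IsPart B δ (Submodule.span F {u, x u}) (planeOp B u (x u) s t) :=
      plane_part hS hc hc' h12 (by rw [ht, ← hsm]; ring)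
    have := part_sup hS ha₁ ha₂ horth
    rw [hsup] at this
    refine this.good_top fun v => ?_
    rw [LinearMap.add_apply, LinearMap.add_apply, plane_anti hS hiso hx2, ha₂x, map_add, neg_smul, one_smul, neg_add]
  refine ⟨u, planeOp B u (x u) s m + a₂, planeOp B u (x u) s (-m) + a₂, hc, hgood m rfl, hgood (-m) (by ring),
    fun v => ?_⟩
  have hu₁ : a₂ u = 0 := ha₂.orth u fun w hw => by
    have h3 := hw
    rw [hB.mem_orth] at h3
    exact h3 u (Submodule.subset_span (by simp))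
  have hr₁ : rOp B u (a₂ v) = a₂ v := by
    apply rOp_fix
    have h3 := ha₂.mem v
    rw [hB.mem_orth'] at h3
    exact h3 u (Submodule.subset_span (by simp))
  have hr₂ : a₂ (rOp B u v) = a₂ v := by
    rw [rOp_apply, map_sub, map_smul, hu₁, smul_zero, sub_zero]
  rw [LinearMap.add_apply, LinearMap.add_apply, map_add, rOp_plane hS hc h12 h2, hr₁, hr₂]

end main

end Cfsg.Agent.Lib.ElusK2.Part
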