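import Mathlib
import Cfsg.Agent.Lib.ElusK2.Conj
import Cfsg.Agent.Lib.ElusK2.Part
import Cfsg.Agent.Lib.ElusK.Backward
import Cfsg.Agent.Lib.ElusQ.SqNegMain
import Cfsg.Agent.Lib.Elusive.OmegaMem

/-!
# Elements of `Ω` with scalar square normalize a conjugate of a self-adjoint quadratic field
-/

set_option autoImplicit false

namespace Cfsg.Agent.Lib.ElusK2.Back

open Module Matrix Cfsg Cfsg.Geo QuadraticMap Cfsg.Agent.Lib.Witt.Quadratic Cfsg.Agent.Lib.Orth.Refl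
  Cfsg.Agent.Lib.Orth.Spin Cfsg.Agent.Lib.Orth.Omega Cfsg.Agent.Lib.Orth.Bridge Cfsg.Agent.Lib.ElusK.Model
  Cfsg.Agent.Lib.ElusK.Order Cfsg.Agent.Lib.ElusK2.Part Cfsg.Agent.Lib.ElusK2.SymBeta
  Cfsg.Agent.Lib.ElusK2.Conj
open scoped MatrixGroups

section normalizer

variable {F L : Type*} [Field F] [Field L] [Algebra F L] {ι : Type} [Fintype ι] [DecidableEq ι]

/-- Elements commuting or anti-commuting with the generator normalize the field. -/
theorem mem_normalizer_of_eps {K : Subalgebra F (Matrix ι ι F)} {ρ : L →ₐ[F] Matrix ι ι F}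
    (hKρ : ∀ m, m ∈ K ↔ ∃ a, ρ a = m) {a : L} (hspan : ∀ m : L, ∃ s t : F, m = algebraMap F L s + t • a)
    {y : GL ι F} {ε : F} (hε : ε ^ 2 = 1)
    (hyA : (y : Matrix ι ι F) * ρ a = ε • (ρ a * (y : Matrix ι ι F))) : y ∈ subalgebraNormalizer K := by
  set Am := ρ a with hAm
  have hAmem : Am ∈ K := (hKρ _).2 ⟨a, rfl⟩
  have e1 : ((y⁻¹ : GL ι F) : Matrix ι ι F) * (y : Matrix ι ι F) = 1 := by
    rw [← Units.val_mul, inv_mul_cancel, Units.val_one]
  have e2 : (y : Matrix ι ι F) * ((y⁻¹ : GL ι F) : Matrix ι ι F) = 1 := by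
    rw [← Units.val_mul, mul_inv_cancel, Units.val_one]
  have hAy : Am * (y : Matrix ι ι F) = ε • ((y : Matrix ι ι F) * Am) := by
    rw [hyA, smul_smul, ← pow_two, hε, one_smul]
  have hc1 : (y : Matrix ι ι F) * Am * ((y⁻¹ : GL ι F) : Matrix ι ι F) = ε • Am := by
    rw [hyA, smul_mul_assoc, mul_assoc, e2, mul_one]
  have hc2 : ((y⁻¹ : GL ι F) : Matrix ι ι F) * Am * (y : Matrix ι ι F) = ε • Am := by
    rw [mul_assoc, hAy, mul_smul_comm, ← mul_assoc, e1, one_mul]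
  have hform : ∀ m ∈ K, ∃ s t : F, m = s • 1 + t • Am := by
    intro m hm
    obtain ⟨b, rfl⟩ := (hKρ m).1 hm
    obtain ⟨s, t, rfl⟩ := hspan b
    refine ⟨s, t, ?_⟩
    rw [map_add, AlgHom.commutes, Algebra.algebraMap_eq_smul_one, map_smul]
  have hin : ∀ s t : F, s • (1 : Matrix ι ι F) + t • Am ∈ K := by
    intro s t
    exact K.add_mem (K.smul_mem K.one_mem s) (K.smul_mem hAmem t)
  apply mem_normalizer_of_conj
  · intro m hm
    obtain ⟨s, t, rfl⟩ := hform m hm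
    have : (y : Matrix ι ι F) * (s • 1 + t • Am) * ((y⁻¹ : GL ι F) : Matrix ι ι F) =
        s • 1 + (t * ε) • Am := by
      rw [mul_add, add_mul, mul_smul_comm, mul_smul_comm, smul_mul_assoc, smul_mul_assoc, mul_one, e2, hc1, smul_smul]
    rw [this]
    exact hin _ _
  · intro m hm
    obtain ⟨s, t, rfl⟩ := hform m hm
    have : ((y⁻¹ : GL ι F) : Matrix ι ι F) * (s • 1 + t • Am) * (y : Matrix ι ι F) =
        s • 1 + (t * ε) • Am := by
      rw [mul_add, add_mul, mul_smul_comm, mul_smul_comm, smul_mul_assoc, smul_mul_assoc, mul_one, e1, hc2, smul_smul]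
    rw [this]
    exact hin _ _

end normalizer

section spin

variable {F V : Type*} [Field F] [Fintype F] [AddCommGroup V] [Module F V] [FiniteDimensional F V]

/-- Nonsingular vectors orthogonal to their image. -/
theorem exists_w {L : Type*} [Field L] [Algebra F L] [Fintype L] [Module L V] [IsScalarTower F L V]
    (hfin : finrank F L = 2) (h2 : (2 : F) ≠ 0) {B : LinearMap.BilinForm F V} (hS : B.IsSymm) (hN : B.Nondegenerate)
    (hsa : ∀ (a : L) (u v : V), B (a • u) v = B u (a • v)) {a₀ : L} {δ : F} (ha2 : a₀ ^ 2 = algebraMap F L δ)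
    (hsq : ∀ c : F, c ^ 2 ≠ δ) (hdim : 2 ≤ finrank L V) : ∃ w, B (a₀ • w) w = 0 ∧ B w w ≠ 0 := by
  classical
  haveI : FiniteDimensional F L := Module.finite_of_finrank_pos (by rw [hfin]; norm_num)
  have hnot : (1 : L) ∉ Submodule.span F {a₀} := by
    intro h
    obtain ⟨t, ht⟩ := Submodule.mem_span_singleton.1 h
    have ht0 : t ≠ 0 := by
      rintro rfl
      rw [zero_smul] at ht
      exact zero_ne_one ht
    have h3 : a₀ = algebraMap F L t⁻¹ := by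
      have h4 : t⁻¹ • (t • a₀) = t⁻¹ • (1 : L) := by rw [ht]
      rw [smul_smul, inv_mul_cancel₀ ht0, one_smul] at h4
      rw [h4, Algebra.algebraMap_eq_smul_one]
    rw [h3, ← map_pow] at ha2
    exact hsq _ ((algebraMap F L).injective ha2)
  obtain ⟨τ, hτ, hτa⟩ := Submodule.exists_le_ker_of_notMem hnot
  have hτa₀ : τ a₀ = 0 := hτa (Submodule.mem_span_singleton_self a₀)
  set β := betaS B hsa τ hτ with hβ
  have hL2 : (2 : L) ≠ 0 := by
    intro h3
    apply h2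
    have : algebraMap F L 2 = 0 := by rw [map_ofNat]; exact h3
    exact (map_eq_zero _).1 this
  haveI : FiniteDimensional L V := FiniteDimensional.right F L V
  obtain ⟨w, hw⟩ := Cfsg.Agent.Lib.QuadDisc.Classify.exists_self_eq hL2 β (betaS_nondeg hsa τ hτ hS hN)
    (betaS_symm hsa τ hτ hS) hdim 1
  refine ⟨w, ?_, ?_⟩
  · rw [form_eqS hsa τ hτ, ← hβ, hw, mul_one]
    exact hτa₀
  · rw [form_eq_oneS hsa τ hτ, ← hβ, hw]
    exact hτ

variable {Q : QuadraticForm F V}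

/-- The element of trivial Dickson invariant and nontrivial spinor class commuting with `A`. -/
theorem exists_spin (hN : (polarBilin Q).Nondegenerate) (h2 : (2 : F) ≠ 0)
    {A : V →ₗ[F] V} {δ : F} (hA2 : ∀ v, A (A v) = δ • v) (hsq : ∀ c : F, c ^ 2 ≠ δ)
    (hsa : ∀ u v, polarBilin Q (A u) v = polarBilin Q u (A v)) {w : V}
    (hw0 : polarBilin Q (A w) w = 0) (hw : polarBilin Q w w ≠ 0) :
    ∃ n ∈ isoGroup Q, rp n = 0 ∧ sn Q n = 1 ∧ ∀ v, n (A v) = A (n v) := by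
  have hδ : δ ≠ 0 := by
    rintro rfl
    exact hsq 0 (by simp)
  have hS := Cfsg.Agent.Lib.ElusQ.Syl.polar_symm Q
  have hQw : Q w ≠ 0 := by
    intro h
    apply hw
    rw [Cfsg.Agent.Lib.ElusQ.Syl.polar_self', h, mul_zero]
  have hQA : Q (A w) = δ * Q w := by
    have h3 := hsa (A w) w
    rw [Cfsg.Agent.Lib.ElusQ.Syl.polar_self', hA2, map_smul, LinearMap.smul_apply, smul_eq_mul,
      Cfsg.Agent.Lib.ElusQ.Syl.polar_self'] at h3
    apply mul_left_cancel₀ h2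
    rw [← h3]
    ring
  have hQA0 : Q (A w) ≠ 0 := by
    rw [hQA]
    exact mul_ne_zero hδ hQw
  have hww : polarBilin Q w (A w) = 0 := by
    rw [hS.eq]
    exact hw0
  let n : V ≃ₗ[F] V := refl Q w * refl Q (A w)
  have hmem : n ∈ isoGroup Q := Subgroup.mul_mem _ (refl_mem Q w) (refl_mem Q _)
  have hnv : ∀ v, n v = v - ((δ * Q w)⁻¹ * polarBilin Q v (A w)) • A w - ((Q w)⁻¹ * polarBilin Q v w) • w := by
    intro v
    change refl Q w (refl Q (A w) v) = _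
    rw [refl_apply, refl_apply, hQA]
    have e1 : polar (⇑Q) (v - ((δ * Q w)⁻¹ * polar (⇑Q) v (A w)) • A w) w = polarBilin Q v w := by
      change polarBilin Q (v - ((δ * Q w)⁻¹ * polarBilin Q v (A w)) • A w) w = _
      rw [map_sub, map_smul, LinearMap.sub_apply, LinearMap.smul_apply, hw0, smul_zero, sub_zero]
    rw [e1]
    rfl
  refine ⟨n, hmem, ?_, ?_, fun v => ?_⟩
  · have h3 : rp (refl Q (A w) * 1) = 1 + rp (1 : V ≃ₗ[F] V) :=
      rp_refl_mul hN (Subgroup.one_mem _) hQA0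
    have h4 : rp (refl Q w * (refl Q (A w) * 1)) = 1 + rp (refl Q (A w) * 1) :=
      rp_refl_mul hN (Subgroup.mul_mem _ (refl_mem Q _) (Subgroup.one_mem _)) hQw
    rw [h3, rp_one, mul_one] at h4
    change rp (refl Q w * refl Q (A w)) = 0
    rw [h4]
    decide
  · have h3 : sn Q (refl Q (A w) * 1) = sqc (Q (A w)) + sn Q (1 : V ≃ₗ[F] V) :=
      sn_refl_mul hN (Subgroup.one_mem _) hQA0
    have h4 : sn Q (refl Q w * (refl Q (A w) * 1)) = sqc (Q w) + sn Q (refl Q (A w) * 1) :=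
      sn_refl_mul hN (Subgroup.mul_mem _ (refl_mem Q _) (Subgroup.one_mem _)) hQw
    rw [h3, sn_one hN, mul_one] at h4
    change sn Q (refl Q w * refl Q (A w)) = 1
    rw [h4, hQA, sqc_mul hδ hQw]
    have h5 : sqc δ = 1 := sqc_eq_one_iff.2 (by
      rintro ⟨c, hc⟩
      exact hsq c (by rw [hc]; ring))
    rw [h5]
    have h6 : ∀ z : ZMod 2, z + (1 + z + 0) = 1 := by decide
    exact h6 _
  · rw [hnv, hnv, map_sub, map_sub, map_smul, map_smul, hA2]
    have e1 : polarBilin Q (A v) (A w) = δ * polarBilin Q v w := by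
      rw [← hsa, hA2, map_smul, LinearMap.smul_apply, smul_eq_mul, hS.eq]
    have e2 : polarBilin Q (A v) w = polarBilin Q v (A w) := hsa v w
    have e4 : (δ * Q w)⁻¹ * (δ * polarBilin Q v w) = (Q w)⁻¹ * polarBilin Q v w := by
      field_simp
    have e5 : (δ * Q w)⁻¹ * polarBilin Q v (A w) * δ = (Q w)⁻¹ * polarBilin Q v (A w) := by
      field_simp
    rw [e1, e2, smul_smul, e4, e5]
    abel

end spin

section main

variable {F : Type*} [Field F] [Fintype F] {ι : Type} [Fintype ι] [DecidableEq ι]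

/-- The backward direction. -/
theorem backward (h2 : (2 : F) ≠ 0) {Q : QuadraticForm F (ι → F)} (hN : (polarBilin Q).Nondegenerate) {d : ℕ}
    (hcard : Fintype.card ι = 2 * d) (hd : 2 ≤ d) {K : Subalgebra F (Matrix ι ι F)} (hK : IsFieldSubalgebra 2 K)
    (hKf : IsSelfAdjointFor (polar ⇑Q) K) (x : GL ι F) (hx : x ∈ omegaGL ⇑Q)
    (hxz : ∃ z : F, ((x ^ 2 : GL ι F) : Matrix ι ι F) = z • (1 : Matrix ι ι F)) :
    ∃ g ∈ omegaGL ⇑Q, g⁻¹ * x * g ∈ subalgebraNormalizer K := by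
  classical
  have hS := Cfsg.Agent.Lib.ElusQ.Syl.polar_symm Q
  have hcardF : Fintype.card F ≠ 2 := Cfsg.Agent.Lib.ElusQ.SqNegMain.card_ne_two h2
  have hcond : Fintype.card F ≠ 2 ∨ Fintype.card ι ≠ 4 := Or.inl hcardF
  have hgen' := hgen Q hN hcond
  have hdimV : finrank F (ι → F) = 2 * d := by
    rw [Module.finrank_fintype_fun_eq_card, hcard]
  obtain ⟨L, _, _, ρ, hρ, hKρ, hfin⟩ := Cfsg.Agent.Lib.Elusive.FieldSub.exists_field_model hK (by norm_num)
  haveI : FiniteDimensional F L := Module.finite_of_finrank_pos (by rw [hfin]; norm_num)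
  haveI : Finite L := Module.finite_of_finite F
  letI : Fintype L := Fintype.ofFinite L
  obtain ⟨a₀, δ, ha2, hsq, hspan⟩ := Cfsg.Agent.Lib.ElusK.Backward.exists_gen hfin h2
  have hδ : δ ≠ 0 := by
    rintro rfl
    exact hsq 0 (by simp)
  let Am : Matrix ι ι F := ρ a₀
  have hAm2 : Am * Am = δ • 1 := by
    change ρ a₀ * ρ a₀ = δ • 1
    rw [← map_mul, ← pow_two, ha2, AlgHom.commutes, Algebra.algebraMap_eq_smul_one]
  have hAmem : Am ∈ K := (hKρ _).2 ⟨a₀, rfl⟩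
  let A : (ι → F) →ₗ[F] (ι → F) := Matrix.toLin' Am
  have hAv : ∀ v, A v = Am *ᵥ v := fun v => Matrix.toLin'_apply _ _
  have hA2 : ∀ v, A (A v) = δ • v := by
    intro v
    rw [hAv, hAv, Matrix.mulVec_mulVec, hAm2, Matrix.smul_mulVec, Matrix.one_mulVec]
  have hsa : ∀ u v, polarBilin Q (A u) v = polarBilin Q u (A v) := by
    intro u v
    rw [hAv, hAv]
    exact hKf _ hAmem u v
  let X : (ι → F) →ₗ[F] (ι → F) := Matrix.toLin' (x : Matrix ι ι F)
  have hXv : ∀ v, X v = (x : Matrix ι ι F) *ᵥ v := fun v => Matrix.toLin'_apply _ _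
  obtain ⟨hx', -⟩ := (Cfsg.Agent.Lib.Elusive.OmegaMem.mem_omegaGL_iff _ x).1 hx
  have hXiso : ∀ u v, polarBilin Q (X u) (X v) = polarBilin Q u v := Cfsg.Agent.Lib.ElusQ.SqNegMain.iso_of_mem Q hN hx'
  obtain ⟨z, hz⟩ := hxz
  have hXX : ∀ v, X (X v) = z • v := by
    intro v
    rw [hXv, hXv, Matrix.mulVec_mulVec, ← pow_two, ← Units.val_pow_eq_pow_val, hz, Matrix.smul_mulVec,
      Matrix.one_mulVec]
  have hcpos : 0 < Fintype.card ι := by omega
  have hz12 := Cfsg.Agent.Lib.ElusQ.SqNegMain.scalar_of_sq Q hN h2 hcpos hx' hz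
  have hpos : 0 < finrank F (ι → F) := by omega
  obtain ⟨ε, hε, u, a, a', hc, hGa, hGa', hr⟩ : ∃ ε : F, ε ^ 2 = 1 ∧ ∃ (u : ι → F) (a a' : (ι → F) →ₗ[F] (ι → F)),
      polarBilin Q u u ≠ 0 ∧ Good (polarBilin Q) δ ε X a ∧ Good (polarBilin Q) δ ε X a' ∧
        ∀ v, rOp (polarBilin Q) u (a v) = a' (rOp (polarBilin Q) u v) := by
    rcases hz12 with rfl | rfl
    · refine ⟨1, by ring, ?_⟩
      refine exists_good_pos h2 hS hN hδ hXiso (fun v => by rw [hXX, one_smul]) ?_ (by rw [hdimV]; exact even_two_mul d) hpos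
      have h3 := Cfsg.Agent.Lib.Elusive.OmegaMem.even_rank_of_mem_omega Q hN hcond x hx
      have h4 : X - 1 = ((x : Matrix ι ι F) - 1).mulVecLin := by
        refine LinearMap.ext fun v => ?_
        rw [LinearMap.sub_apply, hXv, Matrix.mulVecLin_apply, Matrix.sub_mulVec, Matrix.one_mulVec]
        rfl
      rw [h4]
      exact h3
    · refine ⟨-1, by ring, ?_⟩
      exact exists_good_neg h2 hS hN hδ hXiso (fun v => by rw [hXX, neg_smul, one_smul]) hpos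
  obtain ⟨h, hh, hhA⟩ := conj_of_sq h2 hS hN hsq hA2 hGa.sq hsa hGa.sa
  have hmemIso : ∀ t : (ι → F) ≃ₗ[F] (ι → F), (∀ u v, polarBilin Q (t u) (t v) = polarBilin Q u v) → t ∈ isoGroup Q := by
    intro t ht v
    have h3 := ht v v
    rw [Cfsg.Agent.Lib.ElusQ.Syl.polar_self', Cfsg.Agent.Lib.ElusQ.Syl.polar_self'] at h3
    exact mul_left_cancel₀ h2 h3
  have hQu : Q u ≠ 0 := by
    intro h3
    apply hc
    rw [Cfsg.Agent.Lib.ElusQ.Syl.polar_self', h3, mul_zero]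
  have hRu : ∀ v, refl Q u v = rOp (polarBilin Q) u v := by
    intro v
    rw [refl_apply, rOp_apply, Cfsg.Agent.Lib.ElusQ.Syl.polar_self']
    congr 2
    have : polar (⇑Q) v u = polarBilin Q v u := rfl
    rw [this]
    field_simp
  obtain ⟨h₁, hm₁, a₁, hrp₁, hGa₁, hh₁A⟩ : ∃ h₁ ∈ isoGroup Q, ∃ a₁ : (ι → F) →ₗ[F] (ι → F), rp h₁ = 0 ∧
      Good (polarBilin Q) δ ε X a₁ ∧ ∀ v, h₁ (A v) = a₁ (h₁ v) := by
    have hm : h ∈ isoGroup Q := hmemIso h hh
    by_cases hrp : rp h = 0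
    · exact ⟨h, hm, a, hrp, hGa, hhA⟩
    · refine ⟨refl Q u * h, Subgroup.mul_mem _ (refl_mem Q u) hm, a', ?_, hGa', fun v => ?_⟩
      · rw [rp_refl_mul hN hm hQu]
        have h3 : ∀ z : ZMod 2, z ≠ 0 → 1 + z = 0 := by decide
        exact h3 _ hrp
      · change refl Q u (h (A v)) = a' (refl Q u (h v))
        rw [hhA, hRu, hRu, hr]
  obtain ⟨n, hnm, hnrp, hnsn, hnA⟩ : ∃ n ∈ isoGroup Q, rp n = 0 ∧ sn Q n = 1 ∧ ∀ v, n (A v) = A (n v) := by
    letI : Module L (ι → F) := moduleOf ρ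
    haveI : IsScalarTower F L (ι → F) := towerOf ρ
    have hsaL : ∀ (b : L) (u v : ι → F), polarBilin Q (b • u) v = polarBilin Q u (b • v) := fun b u v =>
      hKf _ ((hKρ _).2 ⟨b, rfl⟩) u v
    have hdL : 2 ≤ finrank L (ι → F) := by
      have h3 := Module.finrank_mul_finrank F L (ι → F)
      rw [hfin, hdimV] at h3
      omega
    obtain ⟨w, hw0, hw⟩ := exists_w hfin h2 hS hN hsaL ha2 hsq hdL
    exact exists_spin hN h2 hA2 hsq hsa hw0 hw
  obtain ⟨h₂, hm₂, hrp₂, hsn₂, hh₂A⟩ : ∃ h₂ ∈ isoGroup Q, rp h₂ = 0 ∧ sn Q h₂ = 0 ∧ ∀ v, h₂ (A v) = a₁ (h₂ v) := by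
    by_cases hsn : sn Q h₁ = 0
    · exact ⟨h₁, hm₁, hrp₁, hsn, hh₁A⟩
    · refine ⟨h₁ * n, Subgroup.mul_mem _ hm₁ hnm, ?_, ?_, fun v => ?_⟩
      · rw [rp_mul hN hgen' hm₁ hnm, hrp₁, hnrp, add_zero]
      · rw [sn_mul hN hgen' hm₁ hnm, hnsn]
        have h3 : ∀ z : ZMod 2, z ≠ 0 → z + 1 = 0 := by decide
        exact h3 _ hsn
      · change h₁ (n (A v)) = a₁ (h₁ (n v))
        rw [hnA, hh₁A]
  have hgIso : toGL h₂ ∈ isometryGroup F ⇑Q := by
    rw [mem_isometryGroup_iff]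
    intro v
    rw [toGL_mulVec]
    exact hm₂ v
  have hcoe : ((toIso Q ⟨toGL h₂, hgIso⟩ : isoGroup Q) : (ι → F) ≃ₗ[F] (ι → F)) = h₂ := by
    refine LinearEquiv.ext fun v => ?_
    rw [toIso_apply]
    exact toGL_mulVec h₂ v
  refine ⟨toGL h₂, ?_, ?_⟩
  · rw [Cfsg.Agent.Lib.Elusive.OmegaMem.mem_omegaGL_iff]
    refine ⟨hgIso, ?_⟩
    rw [mem_Omega_iff Q hN hcond, hcoe]
    exact ⟨hrp₂, hsn₂⟩
  · set y : GL ι F := (toGL h₂)⁻¹ * x * toGL h₂ with hy
    have hyv : ∀ v, (y : Matrix ι ι F) *ᵥ v = h₂.symm (X (h₂ v)) := by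
      intro v
      rw [hy, Units.val_mul, Units.val_mul, ← Matrix.mulVec_mulVec, ← Matrix.mulVec_mulVec, toGL_mulVec,
        toGL_inv_mulVec, hXv]
    have hsymm : ∀ t, h₂.symm (a₁ t) = A (h₂.symm t) := by
      intro t
      rw [LinearEquiv.symm_apply_eq, hh₂A, h₂.apply_symm_apply]
    apply mem_normalizer_of_eps hKρ hspan hε
    apply mat_ext
    intro v
    rw [← Matrix.mulVec_mulVec, Matrix.smul_mulVec, ← Matrix.mulVec_mulVec, hyv, hyv]
    change h₂.symm (X (h₂ (Am *ᵥ v))) = ε • (Am *ᵥ h₂.symm (X (h₂ v)))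
    rw [← hAv, ← hAv, hh₂A]
    have h5 : X (a₁ (h₂ v)) = ε • a₁ (X (h₂ v)) := by
      rw [hGa₁.comm, smul_smul, ← pow_two, hε, one_smul]
    rw [h5, map_smul, hsymm]

end main

end Cfsg.Agent.Lib.ElusK2.Back
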