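import Mathlib
import Cfsg.Agent.Lib.ElusQ.OddWFinal
import Cfsg.Agent.Lib.Classical.QuadOrders

/-!
# The order of the orthogonal group of an arbitrary nondegenerate form
-/

set_option autoImplicit false

namespace Cfsg.Agent.Lib.ElusK2.Cards

open Module QuadraticMap Cfsg Cfsg.Agent.Lib.ElusQ.Disc Cfsg.Agent.Lib.ElusQ.EvenV Cfsg.Agent.Lib.ElusQ.Syl
  Cfsg.Agent.Lib.Orth.Forms Cfsg.Agent.Lib.Classical.Quad Cfsg.Agent.Lib.Classical.QuadOrders
  Cfsg.Agent.Lib.ElusQ.OddWFinal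

universe u v w

variable {F : Type u} [Field F] [Fintype F] {V : Type v} [AddCommGroup V] [Module F V] [FiniteDimensional F V]

theorem card_of_polar_iso {V' : Type w} [AddCommGroup V'] [Module F V'] [FiniteDimensional F V'] (h2 : (2 : F) ≠ 0)
    {Q₁ : QuadraticForm F V} {Q' : QuadraticForm F V'} (g : V ≃ₗ[F] V')
    (hg : ∀ x y, polarBilin Q' (g x) (g y) = polarBilin Q₁ x y) :
    Nat.card (oGroup Q₁) = Nat.card (oGroup Q') := by
  refine Nat.card_congr (oGroupEquiv g fun x => ?_).toEquiv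
  have h3 := hg x x
  rw [polar_self', polar_self'] at h3
  exact mul_left_cancel₀ h2 h3

/-- The plus type. -/
theorem card_plus (h2 : (2 : F) ≠ 0) {q : ℕ} (hq : Nat.card F = q) {Q₁ : QuadraticForm F V}
    (hN₁ : (polarBilin Q₁).Nondegenerate) (k : ℕ) (hd : finrank F V = 2 * (k + 1))
    (hy : Hy (polarBilin Q₁) ⊤) :
    Nat.card (oGroup Q₁) =
      2 * q ^ ((k + 1) * k) * (q ^ (k + 1) - 1) * ∏ i ∈ Finset.range k, (q ^ (2 * (i + 1)) - 1) := by
  obtain ⟨g, hg⟩ := exists_equiv_of_hy h2 (polar_symm Q₁) hN₁ (B' := polarBilin (plusForm (k + 1) F))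
    (polar_symm _) (plusForm_nondeg _) (l := k + 1) (by
      rw [Module.finrank_fintype_fun_eq_card, Fintype.card_sum, Fintype.card_fin]
      ring) hd (iff_of_true (hy_plus _) hy)
  rw [card_of_polar_iso h2 g hg, ← Nat.card_congr (isometryEquiv _).toEquiv]
  exact card_isometry_plus hq k

/-- The minus type. -/
theorem card_minus (h2 : (2 : F) ≠ 0) {q : ℕ} (hq : Nat.card F = q) {Q₁ : QuadraticForm F V}
    (hN₁ : (polarBilin Q₁).Nondegenerate) (k : ℕ) (hd : finrank F V = 2 * (k + 1))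
    (hy : ¬ Hy (polarBilin Q₁) ⊤) :
    Nat.card (oGroup Q₁) =
      2 * q ^ ((k + 1) * k) * (q ^ (k + 1) + 1) * ∏ i ∈ Finset.range k, (q ^ (2 * (i + 1)) - 1) := by
  obtain ⟨ν, hν, hνs⟩ := exists_nonsquare h2
  have hab : ∀ x y : F, x ^ 2 + 0 * x * y + (-ν) * y ^ 2 = 0 → x = 0 ∧ y = 0 := by
    intro x y hxy
    have hy0 : y = 0 := by
      by_contra hy0
      apply hνs
      refine ⟨x / y, ?_⟩
      field_simp
      linear_combination -hxy
    refine ⟨?_, hy0⟩
    rw [hy0] at hxy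
    simpa using hxy
  obtain ⟨g, hg⟩ := exists_equiv_of_hy h2 (polar_symm Q₁) hN₁ (B' := polarBilin (minusForm k F 0 (-ν)))
    (polar_symm _) (minusForm_nondeg _ hab) (l := k + 1) (by
      rw [Module.finrank_fintype_fun_eq_card, Fintype.card_sum, Fintype.card_sum, Fintype.card_fin, Fintype.card_fin]
      ring) hd (iff_of_false (not_hy_minus h2 hab) hy)
  rw [card_of_polar_iso h2 g hg, ← Nat.card_congr (isometryEquiv _).toEquiv]
  exact card_isometry_minus hq hab k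

/-- The odd-dimensional case. -/
theorem card_odd' (h2 : (2 : F) ≠ 0) {q : ℕ} (hq : Nat.card F = q) {Q₁ : QuadraticForm F V}
    (hN₁ : (polarBilin Q₁).Nondegenerate) (m : ℕ) (hd : finrank F V = 2 * m + 1) :
    Nat.card (oGroup Q₁) = 2 * q ^ (m ^ 2) * ∏ i ∈ Finset.range m, (q ^ (2 * (i + 1)) - 1) := by
  classical
  let Q₀ := oddForm m F
  have hN₀ : (polarBilin Q₀).Nondegenerate := oddForm_nondeg m h2
  have hd₀ : finrank F (Unit ⊕ (Fin m ⊕ Fin m) → F) = 2 * m + 1 := by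
    rw [Module.finrank_fintype_fun_eq_card, Fintype.card_sum, Fintype.card_sum, Fintype.card_fin, Fintype.card_unit]
    ring
  set d₁ := (LinearMap.BilinForm.toMatrix (finBasis F V) (polarBilin Q₁)).det with hd₁
  set d₀ := (LinearMap.BilinForm.toMatrix (finBasis F (Unit ⊕ (Fin m ⊕ Fin m) → F)) (polarBilin Q₀)).det with hd₀'
  have hd₁0 : d₁ ≠ 0 := (Cfsg.Agent.Lib.QuadDisc.Basic.nondegenerate_iff_det _ _).1 hN₁
  have hd₀0 : d₀ ≠ 0 := (Cfsg.Agent.Lib.QuadDisc.Basic.nondegenerate_iff_det _ _).1 hN₀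
  set c := d₁ * d₀ with hc
  have hc0 : c ≠ 0 := mul_ne_zero hd₁0 hd₀0
  let Q' : QuadraticForm F (Unit ⊕ (Fin m ⊕ Fin m) → F) := c • Q₀
  have hpol : polarBilin Q' = c • polarBilin Q₀ := by
    refine LinearMap.ext₂ fun x y => ?_
    change polar (⇑(c • Q₀)) x y = c • polar (⇑Q₀) x y
    rw [QuadraticMap.coeFn_smul, polar_smul]
  have hN' : (polarBilin Q').Nondegenerate := by
    rw [hpol]
    have hdet : (LinearMap.BilinForm.toMatrix (finBasis F (Unit ⊕ (Fin m ⊕ Fin m) → F)) (c • polarBilin Q₀)).det ≠ 0 := by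
      rw [map_smul, Matrix.det_smul]
      exact mul_ne_zero (pow_ne_zero _ hc0) hd₀0
    exact (Cfsg.Agent.Lib.QuadDisc.Basic.nondegenerate_iff_det _ _).2 hdet
  have hdim : finrank F V = finrank F (Unit ⊕ (Fin m ⊕ Fin m) → F) := by rw [hd, hd₀]
  obtain ⟨g, hg⟩ := Cfsg.Agent.Lib.QuadDisc.Classify.exists_isometry h2 (polarBilin Q₁) (polarBilin Q') hN₁ hN'
    (polar_symm _) (polar_symm _) hdim (by
      rw [hpol, map_smul, Matrix.det_smul, ← hd₀', ← hd₁, Fintype.card_fin, hd₀]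
      refine ⟨c ^ (m + 1), ?_⟩
      rw [hc]
      ring)
  have hsub : oGroup Q' = oGroup Q₀ := by
    ext t
    rw [mem_oGroup, mem_oGroup]
    refine forall_congr' fun x => ?_
    change c • Q₀ (t x) = c • Q₀ x ↔ _
    rw [smul_right_inj hc0]
  rw [card_of_polar_iso h2 g hg, hsub, ← Nat.card_congr (isometryEquiv _).toEquiv]
  exact card_isometry_odd hq h2 m

end Cfsg.Agent.Lib.ElusK2.Cards
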