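import Mathlib
import Cfsg.Agent.Lib.ElusK2.Back
import Cfsg.Agent.Lib.ElusK.Act
import Cfsg.Agent.Lib.ElusQ.OddW

/-!
# Isometries of odd order commuting with the field action
-/

set_option autoImplicit false

namespace Cfsg.Agent.Lib.ElusK2.Fwd

open Module Matrix Cfsg Cfsg.Geo QuadraticMap Cfsg.Agent.Lib.ElusK.Act Cfsg.Agent.Lib.ElusK2.SymBeta
  Cfsg.Agent.Lib.ElusQ.Disc Cfsg.Agent.Lib.ElusQ.Oz Cfsg.Agent.Lib.ElusF.Form
open scoped MatrixGroups

section rankone

variable {L V : Type*} [Field L] [AddCommGroup V] [Module L V] [FiniteDimensional L V]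

/-- An isometry of odd order of a symmetric form does not move a line. -/
theorem no_rank_one (h2 : (2 : L) ≠ 0) {β : LinearMap.BilinForm L V} (hS : β.IsSymm) (hN : β.Nondegenerate)
    (y : V →ₗ[L] V) (hiso : ∀ u v, β (y u) (y v) = β u v) {r : ℕ} (hro : Odd r) (hyr : y ^ r = 1)
    (h1 : finrank L (LinearMap.range (y - 1)) = 1) : False := by
  classical
  obtain ⟨w, hwmem, hw, hex⟩ : ∃ w : V, w ∈ LinearMap.range (y - 1) ∧ w ≠ 0 ∧ ∀ v, ∃ c : L, y v - v = c • w := by
    obtain ⟨w₀, hw₀, hspan⟩ := finrank_eq_one_iff'.1 h1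
    refine ⟨w₀.1, w₀.2, fun h => hw₀ (Subtype.ext h), fun v => ?_⟩
    obtain ⟨c, hc⟩ := hspan ⟨y v - v, ⟨v, rfl⟩⟩
    exact ⟨c, (congrArg Subtype.val hc).symm⟩
  choose φ hφ using hex
  have hy : ∀ v, y v = v + φ v • w := fun v => by rw [← hφ]; abel
  have hsym : ∀ u v, β u v = β v u := fun u v => hS.eq u v
  have hkey : ∀ v, φ v ≠ 0 → 2 * β v w + φ v * β w w = 0 := by
    intro v hv
    have h3 := hiso v v
    rw [hy] at h3
    simp only [map_add, map_smul, LinearMap.add_apply, LinearMap.smul_apply, smul_eq_mul, hsym w v] at h3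
    apply mul_left_cancel₀ hv
    rw [mul_zero]
    linear_combination h3
  have hinj : ∀ {a b : L}, a • w = b • w → a = b := by
    intro a b hab
    exact smul_left_injective L hw hab
  have hex0 : ∃ v₀, φ v₀ ≠ 0 := by
    by_contra hcon
    push Not at hcon
    obtain ⟨t, ht⟩ := hwmem
    rw [LinearMap.sub_apply, Module.End.one_apply, hφ, hcon, zero_smul] at ht
    exact hw ht.symm
  obtain ⟨v₀, hv₀⟩ := hex0
  by_cases hww : β w w = 0
  · apply hw
    apply hN.1
    intro v
    have h3 : ∀ t, φ t ≠ 0 → β t w = 0 := by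
      intro t ht
      have h4 := hkey t ht
      rw [hww, mul_zero, add_zero] at h4
      exact (mul_eq_zero.1 h4).resolve_left h2
    have h5 : β v w = 0 := by
      by_cases hv : φ v = 0
      · have h6 : y v = v := by rw [hy, hv, zero_smul, add_zero]
        have h7 : φ (v + v₀) = φ v₀ := by
          apply hinj
          rw [← hφ, ← hφ, map_add, h6]
          abel
        have h8 := h3 (v + v₀) (by rw [h7]; exact hv₀)
        rw [map_add, LinearMap.add_apply, h3 v₀ hv₀, add_zero] at h8
        exact h8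
      · exact h3 v hv
    rw [hsym]
    exact h5
  · by_cases hφw : φ w = 0
    · have h6 : y w = w := by rw [hy, hφw, zero_smul, add_zero]
      have h7 := hiso v₀ w
      rw [h6, hy] at h7
      simp only [map_add, map_smul, LinearMap.add_apply, LinearMap.smul_apply, smul_eq_mul] at h7
      have h8 : φ v₀ * β w w = 0 := by linear_combination h7
      rcases mul_eq_zero.1 h8 with h9 | h9
      · exact hv₀ h9
      · exact hww h9
    · have h4 := hkey w hφw
      have h5 : φ w = -2 := by
        apply mul_right_cancel₀ hww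
        linear_combination h4
      have h6 : y w = - w := by
        rw [hy, h5, neg_smul, two_smul]
        abel
      have hpow : ∀ k : ℕ, (y ^ (2 * k + 1)) w = - w := by
        intro k
        induction k with
        | zero => simpa using h6
        | succ k ih =>
          have h7 : y (y w) = w := by rw [h6, map_neg, h6, neg_neg]
          rw [show 2 * (k + 1) + 1 = 2 + (2 * k + 1) by ring, pow_add, Module.End.mul_apply, ih, pow_two,
            Module.End.mul_apply, map_neg, map_neg, h7]
      obtain ⟨k, rfl⟩ := hro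
      have h7 := hpow k
      rw [hyr, Module.End.one_apply] at h7
      have h8 : (2 : L) • w = 0 := by
        rw [two_smul]
        nth_rw 1 [h7]
        simp
      rcases smul_eq_zero.1 h8 with h9 | h9
      · exact h2 h9
      · exact hw h9

end rankone

section even

variable {F L V : Type*} [Field F] [Field L] [Algebra F L] [AddCommGroup V] [Module F V] [Module L V]
  [IsScalarTower F L V]

/-- The moved space of an isometry of odd order has even `L`-dimension. -/
theorem even_moved_sym [FiniteDimensional F L] [FiniteDimensional F V] [Fintype L] {B : LinearMap.BilinForm F V}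
    (hS : B.IsSymm) (hN : B.Nondegenerate) (hsa : ∀ (a : L) (u v : V), B (a • u) v = B u (a • v))
    (h2 : (2 : L) ≠ 0) (y : V →ₗ[F] V) (hy : ∀ (a : L) v, y (a • v) = a • y v)
    (hiso : ∀ u v, B (y u) (y v) = B u v) {r : ℕ} (hr : (r : L) ≠ 0) (hro : Odd r) (hyr : y ^ r = 1) :
    Even (finrank L (moved y hy)) := by
  classical
  haveI : FiniteDimensional L V := FiniteDimensional.right F L V
  obtain ⟨τ, hτ⟩ := Cfsg.Agent.Lib.ElusK.Beta.exists_tau (F := F) (L := L)
  set β := betaS B hsa τ hτ with hβ
  have hβS : β.IsSymm := betaS_symm hsa τ hτ hS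
  have hyL : linL y hy ^ r = 1 := by
    refine LinearMap.ext fun v => ?_
    rw [linL_pow, hyr]
    rfl
  have hsup := Cfsg.Agent.Lib.Elusive.SpElt.sup_range_ker (linL y hy) hr hyL
  have hdis := Cfsg.Agent.Lib.Elusive.SpElt.disjoint_range_ker (linL y hy) hr hyL
  have hβiso : ∀ u v, β (y u) (y v) = β u v := betaS_of_iso hsa τ hτ hy hiso
  have hNd : Nd (fun u v => β u v) (moved y hy) := by
    intro u hu hcon
    apply betaS_nd hsa τ hτ hN
    intro v
    have hv : v ∈ LinearMap.range (linL y hy - 1) ⊔ LinearMap.ker (linL y hy - 1) := by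
      rw [hsup]
      trivial
    obtain ⟨v₁, hv₁, v₂, hv₂, rfl⟩ := Submodule.mem_sup.1 hv
    have h1 : β u v₁ = 0 := hcon v₁ hv₁
    have h2' : β u v₂ = 0 := by
      obtain ⟨t, rfl⟩ := hu
      have h3 : y v₂ = v₂ := by
        have h4 : (linL y hy - 1) v₂ = 0 := hv₂
        have h5 : y v₂ - v₂ = 0 := h4
        exact sub_eq_zero.1 h5
      change β (y t - t) v₂ = 0
      rw [map_sub, LinearMap.sub_apply]
      nth_rw 1 [← h3]
      rw [hβiso, sub_self]
    rw [map_add, h1, h2', add_zero]
  have hinv : ∀ x ∈ moved y hy, linL y hy x ∈ moved y hy := by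
    rintro _ ⟨t, rfl⟩
    refine ⟨y t, ?_⟩
    change y (y t) - y t = y (y t - t)
    rw [map_sub]
  let yR : moved y hy →ₗ[L] moved y hy := (linL y hy).restrict hinv
  have hyRpow : ∀ (n : ℕ) (u : moved y hy), ((yR ^ n) u : V) = (y ^ n) u.1 := by
    intro n u
    induction n generalizing u with
    | zero => simp
    | succ n ih =>
      rw [pow_succ, pow_succ, Module.End.mul_apply, Module.End.mul_apply, ih]
      rfl
  have hyRr : yR ^ r = 1 := by
    refine LinearMap.ext fun u => Subtype.ext ?_
    rw [hyRpow, hyr]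
    rfl
  by_contra hodd
  rw [Nat.not_even_iff_odd] at hodd
  obtain ⟨v, hv0, hv⟩ := exists_fixed_of_odd (F := L) (V := moved y hy) (B := β.restrict (moved y hy)) h2
    (Cfsg.Agent.Lib.QuadDisc.Basic.restrict_isSymm β hβS _) (restrict_nondeg hβS hNd) (T := yR)
    (fun u v => hβiso u.1 v.1) hyRr hro hodd
  apply hv0
  apply Subtype.ext
  have h3 : y v.1 = v.1 := congrArg Subtype.val hv
  have h4 : v.1 ∈ LinearMap.ker (linL y hy - 1) := by
    change y v.1 - v.1 = 0
    rw [h3, sub_self]
  exact (Submodule.disjoint_def.1 hdis) v.1 v.2 h4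

end even

section siegel

variable {F V : Type*} [Field F] [Fintype F] [AddCommGroup V] [Module F V] [FiniteDimensional F V] {Q : QuadraticForm F V}

/-- A Siegel transformation. -/
noncomputable def siegel (Q : QuadraticForm F V) (u w : V) : V →ₗ[F] V :=
  LinearMap.id + ((polarBilin Q).flip w).smulRight u - ((polarBilin Q).flip u).smulRight w

theorem siegel_apply (u w v : V) :
    siegel Q u w v = v + polarBilin Q v w • u - polarBilin Q v u • w := by
  simp [siegel]

theorem siegel_pow {u w : V} (hu : Q u = 0) (hw : Q w = 0) (huw : polarBilin Q u w = 0) (n : ℕ) (v : V) :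
    (siegel Q u w ^ n) v = v + (n : F) • (polarBilin Q v w • u - polarBilin Q v u • w) := by
  have hS := Cfsg.Agent.Lib.ElusQ.Syl.polar_symm Q
  have hwu : polarBilin Q w u = 0 := by rw [hS.eq]; exact huw
  have huu : polarBilin Q u u = 0 := by rw [Cfsg.Agent.Lib.ElusQ.Syl.polar_self', hu, mul_zero]
  have hww : polarBilin Q w w = 0 := by rw [Cfsg.Agent.Lib.ElusQ.Syl.polar_self', hw, mul_zero]
  induction n with
  | zero => simp
  | succ n ih =>
    rw [pow_succ', Module.End.mul_apply, ih]
    simp only [siegel_apply, map_add, map_sub, map_smul, LinearMap.add_apply, LinearMap.sub_apply,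
      LinearMap.smul_apply, smul_eq_mul, huw, hwu, huu, hww, mul_zero, add_zero, sub_zero, Nat.cast_succ]
    module

theorem siegel_iso {u w : V} (hu : Q u = 0) (hw : Q w = 0) (huw : polarBilin Q u w = 0) (v : V) :
    Q (siegel Q u w v) = Q v := by
  have hS := Cfsg.Agent.Lib.ElusQ.Syl.polar_symm Q
  have e : ∀ x y : V, Q (x + y) = Q x + Q y + polarBilin Q x y := fun x y => QuadraticMap.map_add Q x y
  have e1 : Q (polarBilin Q v w • u) = 0 := by
    rw [QuadraticMap.map_smul, hu, smul_zero]
  have e2 : Q (- (polarBilin Q v u • w)) = 0 := by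
    rw [QuadraticMap.map_neg, QuadraticMap.map_smul, hw, smul_zero]
  rw [siegel_apply, sub_eq_add_neg, add_assoc, e, e, e1, e2]
  simp only [map_add, map_smul, map_neg, LinearMap.add_apply, LinearMap.smul_apply, smul_eq_mul,
    LinearMap.neg_apply]
  rw [huw]
  ring

end siegel

end Cfsg.Agent.Lib.ElusK2.Fwd
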