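import Mathlib
import Cfsg.Agent.Lib.ElusK2.Cards
import Cfsg.Agent.Lib.ElusK2.Back
import Cfsg.Agent.Lib.Orth.Closure

/-!
# The index of the normalizer of the field, and the type of the form over the field
-/

set_option autoImplicit false

namespace Cfsg.Agent.Lib.ElusK2.Index

open Module Matrix QuadraticMap Cfsg Cfsg.Geo Cfsg.Agent.Lib.ElusK.Model Cfsg.Agent.Lib.ElusK.Order
  Cfsg.Agent.Lib.ElusK2.SymBeta Cfsg.Agent.Lib.ElusQ.Disc Cfsg.Agent.Lib.ElusQ.EvenV
  Cfsg.Agent.Lib.Classical.Quad Cfsg.Agent.Lib.QuadDisc.Basic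
open scoped MatrixGroups

section type

variable {F L V : Type*} [Field F] [Field L] [Algebra F L] [Fintype F] [Fintype L] [AddCommGroup V] [Module F V]
  [Module L V] [IsScalarTower F L V] [FiniteDimensional F V]

/-- When the `L`-dimension is even, the two forms have the same type. -/
theorem hy_tower (hfin : finrank F L = 2) (h2 : (2 : F) ≠ 0) {B : LinearMap.BilinForm F V} (hS : B.IsSymm)
    (hN : B.Nondegenerate) (hsa : ∀ (a : L) (u v : V), B (a • u) v = B u (a • v)) (τ : L →ₗ[F] F) (hτ : τ 1 ≠ 0)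
    {m : ℕ} (hm : finrank L V = 2 * m) : Hy B ⊤ ↔ Hy (betaS B hsa τ hτ) ⊤ := by
  classical
  haveI : FiniteDimensional F L := Module.finite_of_finrank_pos (by rw [hfin]; norm_num)
  haveI : FiniteDimensional L V := FiniteDimensional.right F L V
  have hL2 : (2 : L) ≠ 0 := by
    intro h3
    apply h2
    have : algebraMap F L 2 = 0 := by rw [map_ofNat]; exact h3
    exact (map_eq_zero _).1 this
  set β := betaS B hsa τ hτ with hβ
  have hβS : β.IsSymm := betaS_symm hsa τ hτ hS
  have hβN : β.Nondegenerate := betaS_nondeg hsa τ hτ hS hN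
  have hBβ : ∀ u v, B u v = τ (β u v) := form_eq_oneS hsa τ hτ
  have hdF : finrank F V = 2 * (2 * m) := by
    rw [← Module.finrank_mul_finrank F L V, hfin, hm]
  have h1 : Hy B ⊤ ↔ IsSquare ((-1) ^ (2 * m) * dd B ⊤) :=
    hy_iff h2 hS (fm_of_symm hS hN).nd_top (by rw [finrank_top, hdF])
  have h3 : Hy β ⊤ ↔ IsSquare ((-1) ^ m * dd β ⊤) :=
    hy_iff hL2 hβS (fm_of_symm hβS hβN).nd_top (by rw [finrank_top, hm])
  rw [h1, h3]
  have e1 : ((-1 : F) ^ (2 * m)) = 1 := by
    rw [pow_mul]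
    simp
  rw [e1, one_mul]
  let c := finBasis F L
  let b := finBasis L V
  obtain ⟨u₁, hu₁, hu₁e⟩ := det_eq_dd_top B
  obtain ⟨u₂, hu₂, hu₂e⟩ := det_gram_change (finBasis F V) (c.smulTower b) B
  have hdet := det_gram_tower c b τ β B hBβ
  obtain ⟨u₃, hu₃, hu₃e⟩ := det_eq_dd_top β
  set D := (Matrix.of fun i j => τ (c i * c j)).det with hD
  set G := LinearMap.BilinForm.toMatrix b β with hG
  have hne : (LinearMap.BilinForm.toMatrix (c.smulTower b) B).det ≠ 0 := (nondegenerate_iff_det _ B).1 hN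
  rw [hdet] at hne
  have hD0 : D ^ Fintype.card (Fin (finrank L V)) ≠ 0 := left_ne_zero_of_mul hne
  have hpow : D ^ Fintype.card (Fin (finrank L V)) = D ^ m * D ^ m := by
    rw [Fintype.card_fin, hm, ← pow_add]
    congr 1
    ring
  have hDm : D ^ m ≠ 0 := by
    intro h4
    rw [hpow, h4, mul_zero] at hD0
    exact hD0 rfl
  have hG0 : G.det ≠ 0 := (nondegenerate_iff_det b β).1 hβN
  -- the square classes
  have s1 : IsSquare (dd B ⊤) ↔ IsSquare (Algebra.norm F G.det) := by
    rw [← isSquare_mul_self_mul hu₁ (dd B ⊤), ← hu₁e, ← isSquare_mul_self_mul hu₂, ← hu₂e, hdet, hpow,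
      isSquare_mul_self_mul hDm]
  have s2 : IsSquare (Algebra.norm F G.det) ↔ IsSquare G.det := isSquare_norm_iff hfin h2 hG0
  have s3 : IsSquare G.det ↔ IsSquare (dd β ⊤) := by
    rw [← isSquare_mul_self_mul hu₃ (dd β ⊤), ← hu₃e]
  have hneg : IsSquare ((-1 : L) ^ m) := by
    have h4 : IsSquare (-1 : L) := by
      have := isSquare_algebraMap (F := F) (E := L) hfin h2 (x := -1) (by simp)
      simpa using this
    exact h4.pow m
  obtain ⟨t, ht⟩ := hneg
  have ht0 : t ≠ 0 := by
    rintro rfl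
    rw [mul_zero] at ht
    exact pow_ne_zero m (neg_ne_zero.2 one_ne_zero) ht
  rw [ht, isSquare_mul_self_mul ht0, s1, s2, s3]

end type

section index

variable {F L : Type*} [Field F] [Fintype F] [Field L] [Algebra F L] [FiniteDimensional F L] {ι : Type} [Fintype ι]
  [DecidableEq ι] [Module L (ι → F)] [IsScalarTower F L (ι → F)]

/-- The main divisibility. -/
theorem index_dvd (ρ : L →ₐ[F] Matrix ι ι F) (hsm : ∀ (a : L) (v : ι → F), a • v = ρ a *ᵥ v)
    {K : Subalgebra F (Matrix ι ι F)} (hK : ∀ m, m ∈ K ↔ ∃ a, ρ a = m) {Q : QuadraticForm F (ι → F)}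
    (hN : (polarBilin Q).Nondegenerate) (h2 : (2 : F) ≠ 0) (hι : 2 ≤ Fintype.card ι) (Q₂ : QuadraticForm L (ι → F))
    (hQ₂ : ∀ g : (ι → F) ≃ₗ[L] (ι → F), (∀ x, Q₂ (g x) = Q₂ x) → ∀ x, Q (g x) = Q x) :
    (subalgebraNormalizer K).relIndex (omegaGL ⇑Q) * Nat.card (oGroup Q₂) ∣ Nat.card (isometryGroup F ⇑Q) := by
  classical
  have hmem : ∀ g : oGroup Q₂, toGL (g.1.restrictScalars F) ∈ isometryGroup F ⇑Q := by
    intro g
    rw [Cfsg.Agent.Lib.Orth.Bridge.mem_isometryGroup_iff]
    intro v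
    rw [toGL_mulVec]
    exact hQ₂ g.1 g.2 v
  let ψ : oGroup Q₂ →* isometryGroup F ⇑Q :=
    { toFun := fun g => ⟨toGL (g.1.restrictScalars F), hmem g⟩
      map_one' := by
        apply Subtype.ext
        apply Units.ext
        apply mat_ext
        intro v
        rw [toGL_mulVec]
        change _ = (1 : Matrix ι ι F) *ᵥ v
        rw [Matrix.one_mulVec]
        rfl
      map_mul' := fun g g' => by
        apply Subtype.ext
        apply Units.ext
        apply mat_ext
        intro v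
        rw [toGL_mulVec]
        change _ = ((toGL (g.1.restrictScalars F) : Matrix ι ι F) * (toGL (g'.1.restrictScalars F) : Matrix ι ι F)) *ᵥ v
        rw [← Matrix.mulVec_mulVec, toGL_mulVec, toGL_mulVec]
        rfl }
  have hψ : ∀ g : oGroup Q₂, ((ψ g : isometryGroup F ⇑Q) : GL ι F) = toGL (g.1.restrictScalars F) := fun _ => rfl
  have hidxΩ : (Omega F ⇑Q).index = 4 := Cfsg.Agent.Lib.Orth.Closure.index_Omega_odd Q h2 hι hN
  haveI : (Omega F ⇑Q).Normal := by
    unfold Omega
    infer_instance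
  let A₀ : Subgroup (oGroup Q₂) := (Omega F ⇑Q).comap ψ
  have hA₀ : A₀.index ∣ 4 := by
    rw [← hidxΩ, Subgroup.index_comap]
    exact Subgroup.relIndex_dvd_index_of_normal _ _
  have hsub : ∀ g : A₀, toGL (g.1.1.restrictScalars F) ∈ omegaGL ⇑Q := by
    intro g
    rw [Cfsg.Agent.Lib.Elusive.OmegaMem.mem_omegaGL_iff]
    exact ⟨hmem g.1, g.2⟩
  have hnorm : ∀ g : A₀, toGL (g.1.1.restrictScalars F) ∈ subalgebraNormalizer K := by
    intro g
    apply mem_normalizer_of_comm hK
    intro a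
    apply mat_ext
    intro v
    rw [← Matrix.mulVec_mulVec, ← Matrix.mulVec_mulVec, toGL_mulVec, toGL_mulVec, ← hsm, ← hsm]
    exact g.1.1.map_smul a v
  let f : A₀ →* ((subalgebraNormalizer K).subgroupOf (omegaGL ⇑Q)) :=
    { toFun := fun g => ⟨⟨toGL (g.1.1.restrictScalars F), hsub g⟩, hnorm g⟩
      map_one' := by
        apply Subtype.ext
        apply Subtype.ext
        have := congrArg (Subtype.val) (map_one ψ)
        exact this
      map_mul' := fun g g' => by
        apply Subtype.ext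
        apply Subtype.ext
        have := congrArg (Subtype.val) (map_mul ψ g.1 g'.1)
        exact this }
  have hf : Function.Injective f := by
    intro g g' h
    apply Subtype.ext
    apply Subtype.ext
    refine LinearEquiv.ext fun v => ?_
    have h1 : (toGL (g.1.1.restrictScalars F) : Matrix ι ι F) = toGL (g'.1.1.restrictScalars F) :=
      congrArg (fun x : ((subalgebraNormalizer K).subgroupOf (omegaGL ⇑Q)) => ((x.1.1 : GL ι F) : Matrix ι ι F)) h
    have h2' := congrArg (fun M => M *ᵥ v) h1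
    simp only [toGL_mulVec] at h2'
    exact h2'
  have hdv : Nat.card A₀ ∣ Nat.card ((subalgebraNormalizer K).subgroupOf (omegaGL ⇑Q)) :=
    Subgroup.card_dvd_of_injective f hf
  have hA := Subgroup.card_mul_index A₀
  have hidx := Subgroup.index_mul_card ((subalgebraNormalizer K).subgroupOf (omegaGL ⇑Q))
  have hΩcard : Nat.card (omegaGL ⇑Q) = Nat.card (Omega F ⇑Q) :=
    (Nat.card_congr (Subgroup.equivMapOfInjective (Omega F ⇑Q) (isometryGroup F ⇑Q).subtype Subtype.val_injective).toEquiv).symm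
  have hO := Subgroup.card_mul_index (Omega F ⇑Q)
  rw [hidxΩ] at hO
  rw [← hO, ← hΩcard, ← hidx, ← hA]
  change (subalgebraNormalizer K).relIndex (omegaGL ⇑Q) * (Nat.card A₀ * A₀.index) ∣
    (subalgebraNormalizer K).relIndex (omegaGL ⇑Q) * Nat.card ((subalgebraNormalizer K).subgroupOf (omegaGL ⇑Q)) * 4
  rw [mul_assoc]
  exact Nat.mul_dvd_mul_left _ (Nat.mul_dvd_mul hdv hA₀)

end index

end Cfsg.Agent.Lib.ElusK2.Index
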