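import Mathlib
import Cfsg.Agent.Lib.ElusK2.Fwd
import Cfsg.Agent.Lib.ElusK2.Index
import Cfsg.Agent.Lib.ElusK2.ArithO
import Cfsg.Agent.Lib.ElusK.Forward

/-!
# The implication: if all elements of order `r` of `Ω` normalize a conjugate of the field then `r = 2`
-/

set_option autoImplicit false

namespace Cfsg.Agent.Lib.ElusK2.FwdMain

open Module Matrix QuadraticMap Polynomial Cfsg Cfsg.Geo Cfsg.Agent.Lib.ElusK.Model Cfsg.Agent.Lib.ElusK.Order
  Cfsg.Agent.Lib.ElusK.Act Cfsg.Agent.Lib.ElusK2.SymBeta Cfsg.Agent.Lib.ElusK2.Fwd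
  Cfsg.Agent.Lib.ElusQ.Disc Cfsg.Agent.Lib.ElusQ.EvenV Cfsg.Agent.Lib.ElusQ.Oz Cfsg.Agent.Lib.ElusQ.Pos
  Cfsg.Agent.Lib.ElusF.SpModel Cfsg.Agent.Lib.ElusL.Basic
open scoped MatrixGroups

universe u

variable {F : Type u} [Field F] [Fintype F] {ι : Type} [Fintype ι] [DecidableEq ι]

theorem aeval_sub_one {V : Type*} [AddCommGroup V] [Module F V] (T : Module.End F V) :
    Polynomial.aeval T (X - 1 : F[X]) = T - 1 := by
  simp

/-- An isometry of prime order `r` moving a space of the minimal dimension. -/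
theorem exists_T (h2 : (2 : F) ≠ 0) {q : ℕ} (hq : Fintype.card F = q) {Q : QuadraticForm F (ι → F)}
    (hN : (polarBilin Q).Nondegenerate) {d : ℕ} (hcard : Fintype.card ι = 2 * d) {r : ℕ} [hr' : Fact r.Prime]
    (hr2 : r ≠ 2) (hrF : (r : F) ≠ 0) (hrq : ¬ r ∣ q) (hdvd : r ∣ Nat.card (omegaGL ⇑Q)) :
    ∃ T : Module.End F (ι → F), Oz (polarBilin Q) T r ∧ T ≠ 1 ∧
      finrank F (LinearMap.range (T - 1)) = cOf (orderOf ((q : ℕ) : ZMod r)) := by
  classical
  have hr := hr'.out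
  have hrO : Odd r := hr.odd_of_ne_two hr2
  have hS := Cfsg.Agent.Lib.ElusQ.Syl.polar_symm Q
  have hdimV : finrank F (ι → F) = 2 * d := by
    rw [Module.finrank_fintype_fun_eq_card, hcard]
  -- an element of order `r` in `Ω`
  obtain ⟨g, hg⟩ := exists_prime_orderOf_dvd_card' r hdvd
  have hgm : (g : GL ι F) ∈ omegaGL ⇑Q := g.2
  obtain ⟨hx', -⟩ := (Cfsg.Agent.Lib.Elusive.OmegaMem.mem_omegaGL_iff _ _).1 hgm
  have hgr : (g : GL ι F) ^ r = 1 := by
    have := pow_orderOf_eq_one g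
    rw [hg] at this
    exact congrArg Subtype.val this
  let T₀ : Module.End F (ι → F) := Matrix.toLin' ((g : GL ι F) : Matrix ι ι F)
  have hT₀v : ∀ v, T₀ v = ((g : GL ι F) : Matrix ι ι F) *ᵥ v := fun v => Matrix.toLin'_apply _ _
  have hT₀ : Oz (polarBilin Q) T₀ r :=
    { symm := hS
      nondeg := hN
      iso := Cfsg.Agent.Lib.ElusQ.SqNegMain.iso_of_mem Q hN hx'
      pow := by
        have h1 : T₀ = Matrix.toLinAlgEquiv' ((g : GL ι F) : Matrix ι ι F) := rfl
        rw [h1, ← map_pow, ← Units.val_pow_eq_pow_val, hgr, Units.val_one, map_one] }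
  have hT₀1 : T₀ ≠ 1 := by
    intro h
    have hg1 : g = 1 := by
      apply Subtype.ext
      apply Units.ext
      apply mat_ext
      intro v
      rw [← hT₀v, h]
      change (1 : Module.End F (ι → F)) v = (1 : Matrix ι ι F) *ᵥ v
      rw [Matrix.one_mulVec]
      rfl
    rw [hg1, orderOf_one] at hg
    exact hr.one_lt.ne hg
  set c := cOf (orderOf ((q : ℕ) : ZMod r)) with hc
  have hsum₀ := finrank_K hT₀ hrF
  have hK0₀ : K0 T₀ = LinearMap.ker (T₀ - 1) := by
    change LinearMap.ker (Polynomial.aeval T₀ (X - 1 : F[X])) = _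
    rw [aeval_sub_one]
  have hrk₀ := LinearMap.finrank_range_add_finrank_ker (T₀ - 1)
  have hK1pos : 0 < finrank F (K1 T₀ r) := by
    by_contra h0
    have h3 : finrank F (K0 T₀) = finrank F (ι → F) := by omega
    have h4 : K0 T₀ = ⊤ := Submodule.eq_top_of_finrank_eq h3
    apply hT₀1
    refine LinearMap.ext fun v => ?_
    have h5 : v ∈ LinearMap.ker (T₀ - 1) := by
      rw [← hK0₀, h4]
      trivial
    have h6 : T₀ v - v = 0 := h5
    rw [sub_eq_zero.1 h6]
    rfl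
  have hcdvd : c ∣ finrank F (K1 T₀ r) :=
    c_dvd hT₀ h2 hq hr hrO hrF hrq (nd_K1 hT₀ hrF) (inv_ker T₀ _) le_rfl
  have hcle : c ≤ finrank F (K1 T₀ r) := Nat.le_of_dvd hK1pos hcdvd
  have hcpos : 0 < c := Nat.pos_of_dvd_of_pos hcdvd hK1pos
  rcases Nat.lt_or_ge c (2 * d) with hlt | hge
  · obtain ⟨V', i1, i2, i3, B', T', hOz, hf, hD, hNS⟩ :=
      Cfsg.Agent.Lib.ElusQ.Model.exists_max_model (F := F) hq hr hr2 hrF hrq (2 * d - c) 1
    obtain ⟨e, he⟩ : ∃ e : K0 T', B' (e : V') (e : V') ≠ 0 := by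
      have hnd := nd_K0 hOz hrF
      exact Cfsg.Agent.Lib.QuadDisc.Classify.exists_self_ne_zero h2 (B'.restrict (K0 T')) (restrict_nondeg hOz.symm hnd)
        (Cfsg.Agent.Lib.QuadDisc.Basic.restrict_isSymm _ hOz.symm _) (by
          change 0 < Dk T' (X - 1 : F[X])
          rw [hD]
          omega)
    have hTe : T' (e : V') = e := Cfsg.Agent.Lib.ElusF.Split.mem_fix.mp e.2
    obtain ⟨T, hT, hDT, hT1⟩ := exists_conj_fixed h2 hS hN hOz (by rw [hf, hdimV]; omega) hTe he
    refine ⟨T, hT, hT1 (hNS (by norm_num)), ?_⟩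
    have hrk := LinearMap.finrank_range_add_finrank_ker (T - 1)
    have hker : finrank F (LinearMap.ker (T - 1)) = 2 * d - c := by
      have h3 : Dk T (X - 1 : F[X]) = finrank F (LinearMap.ker (T - 1)) := by
        change finrank F (LinearMap.ker (Polynomial.aeval T (X - 1 : F[X]))) = _
        rw [aeval_sub_one]
      rw [← h3, hDT, hD]
    omega
  · refine ⟨T₀, hT₀, hT₀1, ?_⟩
    have h3 : finrank F (K1 T₀ r) ≤ 2 * d := by omega
    have h4 : finrank F (LinearMap.ker (T₀ - 1)) = 0 := by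
      rw [← hK0₀]
      omega
    omega

section lift

variable {L : Type u} [Field L] [Algebra F L] [FiniteDimensional F L] [Fintype L]
  [Module L (ι → F)] [IsScalarTower F L (ι → F)]

/-- From an isometry to the field action. -/
theorem key_lift (h2 : (2 : F) ≠ 0) {p : ℕ} [Fact p.Prime] [CharP F p] [CharP L p] {Q : QuadraticForm F (ι → F)}
    (hN : (polarBilin Q).Nondegenerate) {d : ℕ} (hcard : Fintype.card ι = 2 * d) (hd : 0 < d)
    (hfin : finrank F L = 2) (ρ : L →ₐ[F] Matrix ι ι F) (hρ : Function.Injective ρ)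
    (hsm : ∀ (a : L) (v : ι → F), a • v = ρ a *ᵥ v)
    {K : Subalgebra F (Matrix ι ι F)} (hKρ : ∀ m, m ∈ K ↔ ∃ a, ρ a = m)
    (hKf : IsSelfAdjointFor (polar ⇑Q) K) {r : ℕ} [hr' : Fact r.Prime] (hr2 : r ≠ 2)
    (P : ∀ x ∈ omegaGL ⇑Q, (∃ z : F, ((x ^ r : GL ι F) : Matrix ι ι F) = z • (1 : Matrix ι ι F)) →
      (∀ z : F, (x : Matrix ι ι F) ≠ z • (1 : Matrix ι ι F)) →
      ∃ g ∈ omegaGL ⇑Q, g⁻¹ * x * g ∈ subalgebraNormalizer K)
    (x₀ : (ι → F) →ₗ[F] (ι → F)) (hiso : ∀ v, Q (x₀ v) = Q v) (hx₀r : x₀ ^ r = 1) (hx₀1 : x₀ ≠ 1) :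
    ∃ n, 2 * n = finrank F (LinearMap.range (x₀ - 1)) ∧ 0 < n ∧ n ≠ 1 ∧
      (r ≠ p → Even n ∧ orderOf ((Fintype.card L : ℕ) : ZMod r) ≤ n) := by
  classical
  have hr := hr'.out
  have hrO : Odd r := hr.odd_of_ne_two hr2
  have hrpos := hr.pos
  have hS := Cfsg.Agent.Lib.ElusQ.Syl.polar_symm Q
  have hcardF : Fintype.card F ≠ 2 := Cfsg.Agent.Lib.ElusQ.SqNegMain.card_ne_two h2
  have hcond : Fintype.card F ≠ 2 ∨ Fintype.card ι ≠ 4 := Or.inl hcardF
  have hL2 : (2 : L) ≠ 0 := by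
    intro h3
    apply h2
    have : algebraMap F L 2 = 0 := by rw [map_ofNat]; exact h3
    exact (map_eq_zero _).1 this
  let X₀ : Matrix ι ι F := LinearMap.toMatrix' x₀
  have hX₀v : ∀ v, X₀ *ᵥ v = x₀ v := fun v => LinearMap.toMatrix'_mulVec x₀ v
  have hX₀r : X₀ ^ r = 1 := by
    have h1 : X₀ = LinearMap.toMatrixAlgEquiv' x₀ := rfl
    rw [h1, ← map_pow, hx₀r, map_one]
  let x : GL ι F := Cfsg.Agent.Lib.Elusive.OmegaMem.glOfPow X₀ r hrpos hX₀r
  have hxc : (x : Matrix ι ι F) = X₀ := rfl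
  have hxr : x ^ r = 1 := Cfsg.Agent.Lib.Elusive.OmegaMem.glOfPow_pow X₀ r hrpos hX₀r
  have hxiso : x ∈ isometryGroup F ⇑Q := by
    rw [Cfsg.Agent.Lib.Orth.Bridge.mem_isometryGroup_iff]
    intro v
    rw [hxc, hX₀v]
    exact hiso v
  have hxΩ : x ∈ omegaGL ⇑Q := Cfsg.Agent.Lib.Elusive.OmegaMem.mem_omega_of_odd Q hN hcond x hxiso hrO hxr
  have hcpos : 0 < Fintype.card ι := by omega
  have hns : ∀ z : F, (x : Matrix ι ι F) ≠ z • (1 : Matrix ι ι F) := by
    intro z hz
    have hz1 : ((x ^ 1 : GL ι F) : Matrix ι ι F) = z • (1 : Matrix ι ι F) := by rw [pow_one]; exact hz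
    have hxv : ∀ v, x₀ v = z • v := by
      intro v
      rw [← hX₀v, ← hxc, hz, Matrix.smul_mulVec, Matrix.one_mulVec]
    rcases Cfsg.Agent.Lib.ElusQ.SqNegMain.scalar_of_sq Q hN h2 hcpos hxiso hz1 with rfl | rfl
    · apply hx₀1
      refine LinearMap.ext fun v => ?_
      rw [hxv, one_smul]
      rfl
    · have hpow : ∀ (k : ℕ) v, (x₀ ^ k) v = (-1 : F) ^ k • v := by
        intro k
        induction k with
        | zero => intro v; simp
        | succ k ih =>
          intro v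
          rw [pow_succ, Module.End.mul_apply, ih, hxv, smul_smul, pow_succ]
      haveI : Nonempty ι := Fintype.card_pos_iff.1 hcpos
      obtain ⟨i⟩ := ‹Nonempty ι›
      have h3 := hpow r (Pi.single i 1)
      rw [hx₀r, hrO.neg_one_pow] at h3
      have h4 := congrFun h3 i
      simp only [Module.End.one_apply, Pi.single_eq_same, neg_smul, one_smul, Pi.neg_apply] at h4
      apply h2
      linear_combination h4
  obtain ⟨g, hg, hy⟩ := P x hxΩ ⟨1, by rw [one_smul, hxr, Units.val_one]⟩ hns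
  set y : GL ι F := g⁻¹ * x * g with hydef
  let Y : (ι → F) →ₗ[F] (ι → F) := Matrix.toLin' (y : Matrix ι ι F)
  have hYv : ∀ v, Y v = (y : Matrix ι ι F) *ᵥ v := fun v => Matrix.toLin'_apply _ _
  have hyr : y ^ r = 1 := by
    rw [hydef, show g⁻¹ * x * g = g⁻¹ * x * g⁻¹⁻¹ by rw [inv_inv], conj_pow, hxr]
    simp
  have hYr : Y ^ r = 1 := by
    have h1 : Y = Matrix.toLinAlgEquiv' (y : Matrix ι ι F) := rfl
    rw [h1, ← map_pow, ← Units.val_pow_eq_pow_val, hyr, Units.val_one, map_one]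
  obtain ⟨hgiso, -⟩ := (Cfsg.Agent.Lib.Elusive.OmegaMem.mem_omegaGL_iff _ _).1 hg
  have hyiso : y ∈ isometryGroup F ⇑Q :=
    (isometryGroup F ⇑Q).mul_mem ((isometryGroup F ⇑Q).mul_mem ((isometryGroup F ⇑Q).inv_mem hgiso) hxiso) hgiso
  have hYiso : ∀ u v, polarBilin Q (Y u) (Y v) = polarBilin Q u v :=
    Cfsg.Agent.Lib.ElusQ.SqNegMain.iso_of_mem Q hN hyiso
  have hY1 : Y ≠ 1 := by
    intro h
    have hy1 : y = 1 := by
      apply Units.ext
      apply mat_ext
      intro v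
      rw [← hYv, h, Units.val_one, Matrix.one_mulVec]
      rfl
    apply hx₀1
    have hx1 : x = 1 := by
      rw [hydef] at hy1
      have h2' : x = g * (g⁻¹ * x * g) * g⁻¹ := by group
      rw [h2', hy1]
      group
    refine LinearMap.ext fun v => ?_
    rw [← hX₀v, ← hxc, hx1, Units.val_one, Matrix.one_mulVec]
    rfl
  have hrank : finrank F (LinearMap.range (Y - 1)) = finrank F (LinearMap.range (x₀ - 1)) := by
    have h1 : finrank F (LinearMap.range (Y - 1)) = ((y : Matrix ι ι F) - 1).rank := by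
      have : Y - 1 = ((y : Matrix ι ι F) - 1).mulVecLin := by
        refine LinearMap.ext fun v => ?_
        rw [LinearMap.sub_apply, hYv, Matrix.mulVecLin_apply, Matrix.sub_mulVec, Matrix.one_mulVec]
        rfl
      rw [this]
      rfl
    have h2' : finrank F (LinearMap.range (x₀ - 1)) = ((x : Matrix ι ι F) - 1).rank := by
      have : x₀ - 1 = ((x : Matrix ι ι F) - 1).mulVecLin := by
        refine LinearMap.ext fun v => ?_
        rw [LinearMap.sub_apply, Matrix.mulVecLin_apply, Matrix.sub_mulVec, Matrix.one_mulVec, hxc, hX₀v]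
        rfl
      rw [this]
      rfl
    rw [h1, h2', hydef, Cfsg.Agent.Lib.ElusK.Forward.rank_conj]
  have e1 : ((y⁻¹ : GL ι F) : Matrix ι ι F) * (y : Matrix ι ι F) = 1 := by
    rw [← Units.val_mul, inv_mul_cancel, Units.val_one]
  have hcomm : ∀ a : L, (y : Matrix ι ι F) * ρ a * ((y⁻¹ : GL ι F) : Matrix ι ι F) = ρ a := by
    by_contra hcon
    push Not at hcon
    obtain ⟨a, ha⟩ := hcon
    have hdvd := dvd_of_not_comm hρ hKρ hy hyr ha
    rw [hfin] at hdvd
    exact hr2 ((Nat.prime_dvd_prime_iff_eq hr Nat.prime_two).1 hdvd)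
  have hcm : ∀ a : L, (y : Matrix ι ι F) * ρ a = ρ a * (y : Matrix ι ι F) := by
    intro a
    nth_rw 2 [← hcomm a]
    rw [mul_assoc ((y : Matrix ι ι F) * ρ a), e1, mul_one]
  have hYL : ∀ (a : L) v, Y (a • v) = a • Y v := by
    intro a v
    rw [hsm, hsm, hYv, hYv, Matrix.mulVec_mulVec, Matrix.mulVec_mulVec, hcm]
  have hsa : ∀ (a : L) (u v : ι → F), polarBilin Q (a • u) v = polarBilin Q u (a • v) := by
    intro a u v
    rw [hsm, hsm]
    exact hKf _ ((hKρ _).2 ⟨a, rfl⟩) u v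
  have hfr := finrank_moved (F := F) (L := L) Y hYL
  rw [hfin, hrank] at hfr
  have hpos := finrank_moved_pos (F := F) (L := L) Y hYL hY1
  refine ⟨finrank L (moved Y hYL), hfr.symm, hpos, ?_, fun hrp => ?_⟩
  · intro h1
    haveI : FiniteDimensional L (ι → F) := FiniteDimensional.right F L _
    obtain ⟨τ, hτ⟩ := Cfsg.Agent.Lib.ElusK.Beta.exists_tau (F := F) (L := L)
    have hyL : linL Y hYL ^ r = 1 := by
      refine LinearMap.ext fun v => ?_
      rw [linL_pow, hYr]
      rfl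
    exact no_rank_one hL2 (betaS_symm hsa τ hτ hS) (betaS_nondeg hsa τ hτ hS hN) (linL Y hYL)
      (betaS_of_iso hsa τ hτ hYL hYiso) hrO hyL h1
  · have hrL : (r : L) ≠ 0 := by
      intro h
      have h2' := (CharP.cast_eq_zero_iff L p r).1 h
      exact hrp ((Nat.prime_dvd_prime_iff_eq (Fact.out) hr).1 h2').symm
    exact ⟨even_moved_sym hS hN hsa hL2 Y hYL hYiso hrL hrO hYr, order_le_moved rfl hrp Y hYL hYr hY1⟩

end lift

section qform

variable {L V : Type*} [Field L] [AddCommGroup V] [Module L V]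

/-- The quadratic form of a symmetric bilinear form. -/
noncomputable def qOfB (β : LinearMap.BilinForm L V) : QuadraticForm L V :=
  (2⁻¹ : L) • LinearMap.BilinMap.toQuadraticMap β

theorem polar_qOfB (h2 : (2 : L) ≠ 0) {β : LinearMap.BilinForm L V} (hS : β.IsSymm) : polarBilin (qOfB β) = β := by
  refine LinearMap.ext₂ fun x y => ?_
  change polar (⇑((2⁻¹ : L) • LinearMap.BilinMap.toQuadraticMap β)) x y = β x y
  rw [QuadraticMap.coeFn_smul, polar_smul, LinearMap.BilinMap.polar_toQuadraticMap, hS.eq y x, smul_eq_mul]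
  field_simp
  ring

end qform

theorem sub_one_factor (q j : ℕ) (hq : 0 < q) : q ^ (2 * j) - 1 = (q ^ j + 1) * (q ^ j - 1) := by
  have h1 : 1 ≤ q ^ j := Nat.one_le_pow _ _ hq
  obtain ⟨t, ht⟩ := Nat.exists_eq_add_of_le h1
  rw [mul_comm 2 j, pow_mul, ht]
  simp only [Nat.add_sub_cancel_left]
  have : (1 + t) ^ 2 = (1 + t + 1) * t + 1 := by ring
  rw [this]
  simp

/-- The forward direction. -/
theorem forward (h2 : (2 : F) ≠ 0) {p : ℕ} [hp : Fact p.Prime] [CharP F p] {q : ℕ} (hq : Fintype.card F = q)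
    {Q : QuadraticForm F (ι → F)} (hN : (polarBilin Q).Nondegenerate) {d : ℕ} (hcard : Fintype.card ι = 2 * d)
    (hd : 2 ≤ d) {K : Subalgebra F (Matrix ι ι F)} (hK : IsFieldSubalgebra 2 K) (hKf : IsSelfAdjointFor (polar ⇑Q) K)
    {r : ℕ} [hr' : Fact r.Prime] (hr2 : r ≠ 2) (hΩ : r ∣ (subalgebraNormalizer K).relIndex (omegaGL ⇑Q))
    (htwo : ∃ u w : ι → F, Q u = 0 ∧ Q w = 0 ∧ polarBilin Q u w = 0 ∧ LinearIndependent F ![u, w])
    (P : ∀ x ∈ omegaGL ⇑Q, (∃ z : F, ((x ^ r : GL ι F) : Matrix ι ι F) = z • (1 : Matrix ι ι F)) →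
      (∀ z : F, (x : Matrix ι ι F) ≠ z • (1 : Matrix ι ι F)) →
      ∃ g ∈ omegaGL ⇑Q, g⁻¹ * x * g ∈ subalgebraNormalizer K) : False := by
  classical
  have hr := hr'.out
  have hS := Cfsg.Agent.Lib.ElusQ.Syl.polar_symm Q
  obtain ⟨L, _, _, ρ, hρ, hKρ, hfin⟩ := Cfsg.Agent.Lib.Elusive.FieldSub.exists_field_model hK (by norm_num)
  haveI : FiniteDimensional F L := Module.finite_of_finrank_pos (by rw [hfin]; norm_num)
  haveI : Finite L := Module.finite_of_finite F
  letI : Fintype L := Fintype.ofFinite L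
  haveI : CharP L p := charP_of_injective_algebraMap (algebraMap F L).injective p
  letI : Module L (ι → F) := moduleOf ρ
  haveI : IsScalarTower F L (ι → F) := towerOf ρ
  have hsm : ∀ (a : L) (v : ι → F), a • v = ρ a *ᵥ v := fun _ _ => rfl
  have hq' : Nat.card F = q := by rw [Nat.card_eq_fintype_card, hq]
  have hQL : Nat.card L = q ^ 2 := by
    rw [Module.natCard_eq_pow_finrank (K := F) (V := L), hq', hfin]
  have hQL' : Fintype.card L = q ^ 2 := by rw [← Nat.card_eq_fintype_card, hQL]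
  have key := key_lift h2 hN hcard (by omega) hfin ρ hρ hsm hKρ hKf hr2 P
  have hdimV : finrank F (ι → F) = 2 * d := by
    rw [Module.finrank_fintype_fun_eq_card, hcard]
  by_cases hrp : r = p
  · subst hrp
    obtain ⟨u, w, hu, hw, huw, hli⟩ := htwo
    have hu0 : u ≠ 0 := by
      intro h
      have := hli.ne_zero 0
      simp [h] at this
    have hx₀r : siegel Q u w ^ r = 1 := by
      refine LinearMap.ext fun v => ?_
      rw [siegel_pow hu hw huw, CharP.cast_eq_zero F r, zero_smul, add_zero]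
      rfl
    have hli' := LinearIndependent.pair_iff.1 hli
    have hx₀1 : siegel Q u w ≠ 1 := by
      intro h
      have hex : ∃ v, polarBilin Q v u ≠ 0 := by
        by_contra hcon
        push Not at hcon
        apply hu0
        apply hN.2
        exact hcon
      obtain ⟨v, hv⟩ := hex
      have h1 := siegel_apply (Q := Q) u w v
      rw [h] at h1
      have h3 : polarBilin Q v w • u + (- polarBilin Q v u) • w = 0 := by
        have h4 : (1 : (ι → F) →ₗ[F] (ι → F)) v = v := rfl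
        rw [h4] at h1
        rw [neg_smul, ← sub_eq_add_neg]
        have h5 : v + (polarBilin Q v w • u - polarBilin Q v u • w) = v := by
          rw [← add_sub_assoc]
          exact h1.symm
        exact add_eq_left.1 h5
      exact hv (neg_eq_zero.1 (hli' _ _ h3).2)
    obtain ⟨n, h1, h3, h4, -⟩ := key (siegel Q u w) (siegel_iso hu hw huw) hx₀r hx₀1
    have hle : LinearMap.range (siegel Q u w - 1) ≤ Submodule.span F (Set.range ![u, w]) := by
      rintro _ ⟨v, rfl⟩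
      rw [LinearMap.sub_apply, siegel_apply, Module.End.one_apply, add_sub_assoc, add_sub_cancel_left]
      rw [Matrix.range_cons, Matrix.range_cons, Matrix.range_empty, Set.union_empty, Set.singleton_union]
      exact Submodule.sub_mem _ (Submodule.smul_mem _ _ (Submodule.subset_span (by simp)))
        (Submodule.smul_mem _ _ (Submodule.subset_span (by simp)))
    have h5 := Submodule.finrank_mono hle
    rw [finrank_span_eq_card hli, Fintype.card_fin] at h5
    omega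
  have hrF : (r : F) ≠ 0 := by
    intro h
    have h2' := (CharP.cast_eq_zero_iff F p r).1 h
    exact hrp ((Nat.prime_dvd_prime_iff_eq hp.out hr).1 h2').symm
  have hrq : ¬ r ∣ q := by
    intro h
    obtain ⟨n, -, hn⟩ := FiniteField.card F p
    rw [← hq, hn] at h
    exact hrp ((Nat.prime_dvd_prime_iff_eq hr hp.out).1 (hr.dvd_of_dvd_pow h))
  have hdvd : r ∣ Nat.card (omegaGL ⇑Q) := hΩ.trans (Subgroup.relIndex_dvd_card _ _)
  obtain ⟨T, hT, hT1, hTr⟩ := exists_T h2 hq hN hcard hr2 hrF hrq hdvd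
  rw [ArithO.cOf_eq hrq] at hTr
  have hTiso : ∀ v, Q (T v) = Q v := by
    intro v
    have h3 := hT.iso v v
    rw [Cfsg.Agent.Lib.ElusQ.Syl.polar_self', Cfsg.Agent.Lib.ElusQ.Syl.polar_self'] at h3
    exact mul_left_cancel₀ h2 h3
  obtain ⟨n, h1, -, -, h3⟩ := key T hTiso hT.pow hT1
  obtain ⟨hev, -⟩ := h3 hrp
  have hne : n = orderOf (((q ^ 2 : ℕ)) : ZMod r) := by omega
  rw [hne] at hev
  -- the arithmetic
  have hq1 : 1 < q := by
    rw [← hq]
    exact Fintype.one_lt_card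
  have hL2 : (2 : L) ≠ 0 := by
    intro h3
    apply h2
    have : algebraMap F L 2 = 0 := by rw [map_ofNat]; exact h3
    exact (map_eq_zero _).1 this
  have hsa : ∀ (a : L) (u v : ι → F), polarBilin Q (a • u) v = polarBilin Q u (a • v) := by
    intro a u v
    rw [hsm, hsm]
    exact hKf _ ((hKρ _).2 ⟨a, rfl⟩) u v
  haveI : FiniteDimensional L (ι → F) := FiniteDimensional.right F L _
  obtain ⟨τ, hτ⟩ := Cfsg.Agent.Lib.ElusK.Beta.exists_tau (F := F) (L := L)
  set β := betaS (polarBilin Q) hsa τ hτ with hβ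
  have hβS : β.IsSymm := betaS_symm hsa τ hτ hS
  have hβN : β.Nondegenerate := betaS_nondeg hsa τ hτ hS hN
  have hpol : polarBilin (qOfB β) = β := polar_qOfB hL2 hβS
  have hN₂ : (polarBilin (qOfB β)).Nondegenerate := by rw [hpol]; exact hβN
  have hQ₂ : ∀ g : (ι → F) ≃ₗ[L] (ι → F), (∀ x, qOfB β (g x) = qOfB β x) → ∀ x, Q (g x) = Q x := by
    intro g hg x
    have hgβ : ∀ u v, β (g u) (g v) = β u v := by
      intro u v
      rw [← hpol]
      change polar (⇑(qOfB β)) (g u) (g v) = polar (⇑(qOfB β)) u v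
      simp only [polar, ← map_add, hg]
    have h4 := iso_of_betaS hsa τ hτ (g := g) hgβ x x
    rw [Cfsg.Agent.Lib.ElusQ.Syl.polar_self', Cfsg.Agent.Lib.ElusQ.Syl.polar_self'] at h4
    exact mul_left_cancel₀ h2 h4
  have hι : 2 ≤ Fintype.card ι := by omega
  have hdiv := Index.index_dvd ρ hsm hKρ hN h2 hι (qOfB β) hQ₂
  rw [Nat.card_congr (Cfsg.Agent.Lib.Classical.QuadOrders.isometryEquiv Q).toEquiv] at hdiv
  have hdL : finrank L (ι → F) = d := by
    have h3 := Module.finrank_mul_finrank F L (ι → F)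
    rw [hfin, hdimV] at h3
    omega
  rcases Nat.even_or_odd' d with ⟨m, hm | hm⟩
  · obtain ⟨k, rfl⟩ : ∃ k, m = k + 1 := ⟨m - 1, by omega⟩
    have hLd : finrank L (ι → F) = 2 * (k + 1) := by rw [hdL, hm]
    have hFd : finrank F (ι → F) = 2 * (2 * k + 1 + 1) := by
      rw [hdimV, hm]
      ring
    have hty := Index.hy_tower hfin h2 hS hN hsa τ hτ hLd
    have es : (q ^ 2) ^ (k + 1) = q ^ (2 * k + 1 + 1) := by
      rw [← pow_mul]
      congr 1
    have hq2k : 1 < q ^ (2 * k + 1 + 1) := Nat.one_lt_pow (by omega) hq1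
    by_cases hy : Hy (polarBilin Q) ⊤
    · have c1 := Cards.card_plus h2 hq' hN (2 * k + 1) hFd hy
      have c2 := Cards.card_plus hL2 hQL hN₂ k hLd (by rw [hpol]; exact hty.1 hy)
      rw [c1, c2, es] at hdiv
      exact ArithO.arith_even hrq hev hq1 (by omega) hdiv hΩ
    · have c1 := Cards.card_minus h2 hq' hN (2 * k + 1) hFd hy
      have c2 := Cards.card_minus hL2 hQL hN₂ k hLd (by rw [hpol]; exact fun h => hy (hty.2 h))
      rw [c1, c2, es] at hdiv
      exact ArithO.arith_even hrq hev hq1 (by omega) hdiv hΩ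
  · have hLd : finrank L (ι → F) = 2 * m + 1 := by rw [hdL, hm]
    have hFd : finrank F (ι → F) = 2 * (2 * m + 1) := by
      rw [hdimV, hm]
    have c2 := Cards.card_odd' hL2 hQL hN₂ m hLd
    by_cases hy : Hy (polarBilin Q) ⊤
    · have c1 := Cards.card_plus h2 hq' hN (2 * m) hFd hy
      rw [c1, c2] at hdiv
      refine ArithO.arith_odd hrq hev hq1 (fun h4 => ?_) hdiv hΩ
      rw [sub_one_factor q _ (by omega)]
      exact h4.trans (Dvd.intro_left _ rfl)
    · have c1 := Cards.card_minus h2 hq' hN (2 * m) hFd hy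
      rw [c1, c2] at hdiv
      refine ArithO.arith_odd hrq hev hq1 (fun h4 => ?_) hdiv hΩ
      rw [sub_one_factor q _ (by omega)]
      exact h4.trans (Dvd.intro _ rfl)

/-- The generic theorem. -/
theorem main_iff (h2 : (2 : F) ≠ 0) {p : ℕ} [hp : Fact p.Prime] [CharP F p] {q : ℕ} (hq : Fintype.card F = q)
    {Q : QuadraticForm F (ι → F)} (hN : (polarBilin Q).Nondegenerate) {d : ℕ} (hcard : Fintype.card ι = 2 * d)
    (hd : 2 ≤ d) {K : Subalgebra F (Matrix ι ι F)} (hK : IsFieldSubalgebra 2 K) (hKf : IsSelfAdjointFor (polar ⇑Q) K)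
    {r : ℕ} [hr' : Fact r.Prime] (hΩ : r ∣ (subalgebraNormalizer K).relIndex (omegaGL ⇑Q))
    (htwo : ∃ u w : ι → F, Q u = 0 ∧ Q w = 0 ∧ polarBilin Q u w = 0 ∧ LinearIndependent F ![u, w]) :
    (∀ x ∈ omegaGL ⇑Q, (∃ z : F, ((x ^ r : GL ι F) : Matrix ι ι F) = z • (1 : Matrix ι ι F)) →
      (∀ z : F, (x : Matrix ι ι F) ≠ z • (1 : Matrix ι ι F)) →
      ∃ g ∈ omegaGL ⇑Q, g⁻¹ * x * g ∈ subalgebraNormalizer K) ↔ r = 2 := by
  constructor
  · intro P
    by_contra hr2
    exact forward h2 hq hN hcard hd hK hKf hr2 hΩ htwo P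
  · rintro rfl x hx hxz -
    exact Cfsg.Agent.Lib.ElusK2.Back.backward h2 hN hcard hd hK hKf x hx hxz

end Cfsg.Agent.Lib.ElusK2.FwdMain
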